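import Cfsg.Agent.O6.Defs
import Cfsg.Agent.H1.AltAut

set_option autoImplicit false

namespace Cfsg.Agent.O6

open Cfsg Subgroup Equiv Equiv.Perm

section embed

variable {α : Type*} [Fintype α] [DecidableEq α]

private theorem psi_inj (h4 : 4 ≤ Fintype.card α) :
    Function.Injective (MulAut.conjNormal : Perm α →* MulAut (alternatingGroup α)) := by
  have h3 : ∀ p q : α, ∃ r s, r ≠ p ∧ r ≠ q ∧ s ≠ p ∧ s ≠ q ∧ s ≠ r := fun p q => by
    have h1 : 1 < (Finset.univ \ {p, q} : Finset α).card := by
      have := Finset.le_card_sdiff ({p, q} : Finset α) Finset.univ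
      have := Finset.card_le_two (a := p) (b := q)
      rw [Finset.card_univ] at *
      omega
    obtain ⟨r, hr, s, hs, e⟩ := Finset.one_lt_card.1 h1
    exact ⟨r, s, by grind, by grind, by grind, by grind, e.symm⟩
  refine (injective_iff_map_eq_one _).2 fun σ hσ => Equiv.ext fun p => by_contra fun hp => ?_
  obtain ⟨r, s, h1, h2, h3, h4, h5⟩ := h3 p (σ p)
  have h6 := congrArg (fun f : MulAut (alternatingGroup α) => (f ⟨_,
    (isThreeCycle_swap_mul_swap_same h1.symm h3.symm h5.symm).mem_alternatingGroup⟩ : Perm α)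
    (σ p)) hσ
  have hp' : σ p ≠ p := hp
  simp [swap_apply_of_ne_of_ne, hp', h2.symm, h4.symm, h3, h5] at h6

private theorem embed {G : Type*} [Group G] (h4 : 4 ≤ Fintype.card α)
    (Φ : G →* MulAut (alternatingGroup α)) (inj : Function.Injective Φ)
    (h1 : ∀ g, ∃ σ : Perm α, MulAut.conjNormal σ = Φ g)
    (h2 : ∀ a : alternatingGroup α, ∃ g, Φ g = MulAut.conj a) :
    Nonempty (G ≃* alternatingGroup α) ∨ Nonempty (G ≃* Perm α) := by
  have : Nontrivial α := Fintype.one_lt_card_iff_nontrivial.1 (by omega)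
  choose f hf using h1
  let F : G →* Perm α := MonoidHom.mk' f fun a b => psi_inj h4 (by rw [map_mul, hf, hf, hf, map_mul])
  have iF : Function.Injective F := fun a b e => inj (by
    rw [← hf, ← hf]; exact congrArg _ e)
  have le : alternatingGroup α ≤ F.range := fun a ha => by
    obtain ⟨g, hg⟩ := h2 ⟨a, ha⟩
    exact ⟨g, psi_inj h4 ((hf g).trans (hg.trans (MulEquiv.ext fun _ => rfl)))⟩
  have d := index_dvd_of_le le
  rw [alternatingGroup.index_eq_two] at d
  rcases (Nat.dvd_prime Nat.prime_two).1 d with e | e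
  · exact Or.inr ⟨MulEquiv.ofBijective F ⟨iF, MonoidHom.range_eq_top.1 (index_eq_one.1 e)⟩⟩
  · exact Or.inl ⟨(MonoidHom.ofInjective iF).trans
      (MulEquiv.subgroupCongr (eq_alternatingGroup_of_index_eq_two e))⟩

end embed

private def pz : S6 := swap 0 1 * swap 2 3
private def ps : S6 := swap 0 2 * swap 1 3
private def pt : S6 := swap 0 1 * swap 4 5
private def pc : S6 := swap 0 1 * swap 0 2

private def az : A6 := ⟨pz, mem_alternatingGroup.2 (by decide)⟩
private def as' : A6 := ⟨ps, mem_alternatingGroup.2 (by decide)⟩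
private def ac : A6 := ⟨pc, mem_alternatingGroup.2 (by decide)⟩

private theorem dec1 : ∀ d : S6, d * d * d = 1 → d ≠ 1 →
    (d * pz = ps * d ∨ d * pz = ps * pz * d) → d.support.card = 3 := by decide +kernel

private theorem dec2 : ∀ u : S6, u * u = 1 → u * pz = pz * u → u ≠ 1 → u ≠ pz → sign u = 1 →
    (u = ps ∨ u = ps * pz) ∨ (u = pt ∨ u = pt * pz) := by decide +kernel

private theorem dec3 : ∀ σ : S6, σ * ps = ps * pz * σ →
    (σ * pt = pt * pz * σ ∨ σ * (pt * pz) = pt * pz * pz * σ) → σ * σ * pc ≠ pc * (σ * σ) := by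
  decide +kernel

private theorem ac_three : (ac : S6).IsThreeCycle :=
  isThreeCycle_swap_mul_swap_same (by decide) (by decide) (by decide)

private theorem three_conj {a b : A6} (h : IsConj a b) (ha : (a : S6).IsThreeCycle) :
    (b : S6).IsThreeCycle :=
  (isConj_iff_cycleType_eq.1 ((alternatingGroup (Fin 6)).subtype.map_isConj h)).symm.trans ha

/-- An automorphism normalising the four-group `⟨z, s⟩` preserves the three-cycles. -/
private theorem pres_of_V {φ : MulAut A6} (hz : φ az = az) (hs : φ as' = as' ∨ φ as' = as' * az)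
    (c : A6) (hc : (c : S6).IsThreeCycle) : (φ c : S6).IsThreeCycle := by
  have e1 : ac * ac * ac = 1 := Subtype.ext (by decide)
  have e2 : ac ≠ 1 := fun e => absurd (congrArg Subtype.val e) (by decide)
  have e3 : ac * az = as' * ac ∨ ac * az = as' * az * ac := by
    simp only [Subtype.ext_iff]; decide
  have e4 : as' * az * az = as' := Subtype.ext (by decide)
  have h1 : (φ ac : S6).IsThreeCycle := by
    refine card_support_eq_three_iff.1 (dec1 _ ?_ ?_ ?_)
    · exact congrArg Subtype.val (show φ ac * φ ac * φ ac = 1 by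
        rw [← map_mul, ← map_mul, e1, map_one])
    · exact fun e => e2 (φ.injective (by rw [map_one]; exact Subtype.ext e))
    · have : φ ac * az = as' * φ ac ∨ φ ac * az = as' * az * φ ac := by
        rcases e3 with e | e <;> have e' := congrArg φ e <;> simp only [map_mul, hz] at e' <;>
          rcases hs with k | k <;> rw [k] at e'
        · exact Or.inl e'
        · exact Or.inr e'
        · exact Or.inr e'
        · rw [e4] at e'; exact Or.inl e'
      exact this.imp (congrArg Subtype.val) (congrArg Subtype.val)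
  exact three_conj (φ.toMonoidHom.map_isConj
    (alternatingGroup.isThreeCycle_isConj (by simp) ac_three hc)) h1

private theorem inv_conj {u : A6} (h2 : u * u = 1) (h1 : u ≠ 1) : IsConj az u := by
  have key : ∀ w : A6, w * w = 1 → w ≠ 1 → (w : S6).cycleType = {2, 2} := fun w a b => by
    have o : orderOf (w : S6) = 2 := by
      rw [orderOf_coe]; exact orderOf_eq_prime (by rw [pow_two, a]) b
    obtain ⟨n, hn⟩ := cycleType_prime_order (σ := (w : S6)) (by rw [o]; exact Nat.prime_two)
    rw [o] at hn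
    have c1 := (w : S6).sum_cycleType_le
    have c2 := sign_of_cycleType (w : S6)
    rw [mem_alternatingGroup.1 w.2, hn] at c2
    rw [hn] at c1
    simp only [Multiset.sum_replicate, Multiset.card_replicate, smul_eq_mul, Fintype.card_fin] at c1 c2
    have : n ≤ 2 := by omega
    interval_cases n
    · exact absurd c2 (by decide)
    · exact hn
    · exact absurd c2 (by decide)
  refine alternatingGroup.isConj_of (isConj_iff_cycleType_eq.2 ?_) (by decide)
  rw [key u h2 h1, key az (Subtype.ext (by decide))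
    fun e => absurd (congrArg Subtype.val e) (by decide)]

private theorem pres_aux {ψ : MulAut A6} (ho : orderOf ψ ≤ 6) (hz : ψ az = az)
    (hu : (ψ as' : S6) = pt ∨ (ψ as' : S6) = pt * pz) (hw : ψ (ψ as') = as' * az) : False := by
  have n1 : as' * az ≠ as' := fun e => absurd (congrArg Subtype.val e) (by decide)
  have e4 : as' * az * az = as' := Subtype.ext (by decide)
  have n2 : ψ as' ≠ as' := fun e => by
    rw [e] at hu; exact absurd hu (by decide)
  have n3 : ψ as' * az ≠ as' := fun e => by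
    have := congrArg Subtype.val e
    rcases hu with k | k <;> rw [Subgroup.coe_mul, k] at this <;> exact absurd this (by decide)
  have e5 : ψ as' * az * az = ψ as' := by
    rw [mul_assoc, show az * az = 1 from Subtype.ext (by decide), mul_one]
  have p := pow_orderOf_eq_one ψ
  have q := orderOf_pos ψ
  have p' := congrArg (fun f : MulAut A6 => f as') p
  have h4 : orderOf ψ = 4 := by
    interval_cases orderOf ψ <;>
      simp only [pow_succ, pow_zero, one_mul, MulAut.mul_apply, MulAut.one_apply, hw, map_mul, hz,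
        e4, e5] at p' <;> first | rfl | contradiction
  obtain ⟨σ, hσ⟩ := H1.AltAut.exists_conj (p := (0 : Fin 6)) (q := 1) (r := 2) (by decide)
    (by decide) (by decide) ⟨3, by decide⟩ (ψ * ψ) (pres_of_V (by
      rw [MulAut.mul_apply, hz, hz]) (Or.inr hw))
  have a1 := hσ as'
  have a2 := hσ (ψ as')
  rw [MulAut.mul_apply, hw] at a1
  rw [MulAut.mul_apply, hw, map_mul, hz] at a2
  refine dec3 σ (eq_mul_of_mul_inv_eq a1.symm) ?_ ?_
  · rcases hu with k | k <;> rw [Subgroup.coe_mul, k] at a2
    · exact Or.inl (eq_mul_of_mul_inv_eq a2.symm)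
    · exact Or.inr (eq_mul_of_mul_inv_eq a2.symm)
  · have b1 := hσ ((ψ * ψ) ac)
    rw [hσ ac, ← MulAut.mul_apply, show ψ * ψ * (ψ * ψ) = ψ ^ 4 by
      simp only [pow_succ, pow_zero, one_mul, mul_assoc], ← h4, p] at b1
    have b2 : pc = σ * (σ * pc * σ⁻¹) * σ⁻¹ := b1
    calc σ * σ * pc = σ * (σ * pc * σ⁻¹) * σ⁻¹ * (σ * σ) := by group
      _ = _ := by rw [← b2]

private theorem pres {φ : MulAut A6} (h : ∀ n : A6, orderOf (φ * MulAut.conj n) ≤ 6)
    (c : A6) (hc : (c : S6).IsThreeCycle) : (φ c : S6).IsThreeCycle := by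
  have z2 : az * az = 1 := Subtype.ext (by decide)
  have z1 : az ≠ 1 := fun e => absurd (congrArg Subtype.val e) (by decide)
  obtain ⟨m, hm⟩ := isConj_iff.1 (inv_conj (u := φ.symm az) (by rw [← map_mul, z2, map_one])
    fun e => z1 (by rw [← φ.apply_symm_apply az, e, map_one]))
  obtain ⟨ψ, hψ⟩ : ∃ ψ, ψ = φ * MulAut.conj m := ⟨_, rfl⟩
  have hz : ψ az = az := by rw [hψ, MulAut.mul_apply, MulAut.conj_apply, hm, φ.apply_symm_apply]
  have cl : ∀ u : A6, u * u = 1 → u * az = az * u → u ≠ 1 → u ≠ az →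
      (ψ u = as' ∨ ψ u = as' * az) ∨ ((ψ u : S6) = pt ∨ (ψ u : S6) = pt * pz) :=
    fun u a1 a2 a3 a4 => by
      refine (dec2 (ψ u) ?_ ?_ ?_ ?_ (mem_alternatingGroup.1 (ψ u).2)).imp_left
        (Or.imp Subtype.ext Subtype.ext)
      · exact congrArg Subtype.val (show ψ u * ψ u = 1 by rw [← map_mul, a1, map_one])
      · exact congrArg Subtype.val (show ψ u * az = az * ψ u by
          rw [← hz, ← map_mul, a2, map_mul, hz])
      · exact fun e => a3 (ψ.injective (by rw [map_one]; exact Subtype.ext e))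
      · exact fun e => a4 (ψ.injective (by rw [hz]; exact Subtype.ext e))
  rcases cl as' (Subtype.ext (by decide)) (Subtype.ext (by decide))
    (fun e => absurd (congrArg Subtype.val e) (by decide))
    (fun e => absurd (congrArg Subtype.val e) (by decide)) with hs | hu
  · have := pres_of_V hz hs (m⁻¹ * c * m) (three_conj (isConj_iff.2 ⟨m⁻¹, by rw [inv_inv]⟩) hc)
    rwa [hψ, MulAut.mul_apply, MulAut.conj_apply,
      show m * (m⁻¹ * c * m) * m⁻¹ = c by group] at this
  exfalso
  have k1 : as' * ψ as' * as'⁻¹ = ψ as' * az := Subtype.ext (by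
    rcases hu with k | k <;> simp only [Subgroup.coe_mul, Subgroup.coe_inv, k] <;> decide)
  rcases cl (ψ as') (Subtype.ext (by rcases hu with k | k <;> simp only [Subgroup.coe_mul, k] <;> decide))
    (Subtype.ext (by rcases hu with k | k <;> simp only [Subgroup.coe_mul, k] <;> decide))
    (fun e => by rw [e] at hu; exact absurd hu (by decide))
    (fun e => by rw [e] at hu; exact absurd hu (by decide)) with (hw | hw) | hw
  · refine pres_aux (ψ := ψ * MulAut.conj as') ?_ ?_ ?_ ?_
    · rw [hψ, mul_assoc, ← map_mul]; exact h _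
    · rw [MulAut.mul_apply, MulAut.conj_apply,
        show as' * az * as'⁻¹ = az from Subtype.ext (by decide), hz]
    · rwa [MulAut.mul_apply, MulAut.conj_apply, mul_inv_cancel_right]
    · simp only [MulAut.mul_apply, MulAut.conj_apply, mul_inv_cancel_right]
      rw [k1, map_mul, hw, hz]
  · exact pres_aux (hψ ▸ h m) hz hu hw
  · have k2 : ψ as' * ψ (ψ as') = ψ (ψ as') * ψ as' := Subtype.ext (by
      rcases hu with k | k <;> rcases hw with k' | k' <;> simp only [Subgroup.coe_mul, k, k'] <;> decide)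
    rw [← map_mul, ← map_mul] at k2
    rw [ψ.injective k2, mul_inv_cancel_right] at k1
    exact z1 (left_eq_mul.1 k1)

/-- Groups with a normal subgroup `A₅` or `A₆`. -/
theorem Hyp.aut {G : Type*} [Group G] [Finite G] (h : Hyp G) (N : Subgroup G) [N.Normal]
    (hN : Nonempty (N ≃* A5) ∨ Nonempty (N ≃* A6)) : St G := by
  have d : 10 ∣ Nat.card N := by
    rcases hN with ⟨⟨e⟩⟩ | ⟨⟨e⟩⟩ <;>
      rw [Nat.card_congr e.toEquiv, nat_card_alternatingGroup, Nat.card_fin] <;> decide
  have := Fact.mk Nat.prime_five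
  obtain ⟨x, hx⟩ := exists_prime_orderOf_dvd_card' (G := N) 5 (Dvd.dvd.trans (by norm_num) d)
  obtain ⟨y, hy⟩ := exists_prime_orderOf_dvd_card' (G := N) 2 (Dvd.dvd.trans (by norm_num) d)
  rw [← orderOf_coe] at hx hy
  have hC : ∀ g : G, (∀ k ∈ N, g * k * g⁻¹ = k) → g = 1 := fun g hg => by_contra fun n => by
    have a := h.five hx (eq_mul_of_mul_inv_eq (hg x x.2))
    have b := h.five (orderOf_eq_prime a n) (eq_mul_of_mul_inv_eq (hg y y.2)).symm
    have c := orderOf_dvd_of_pow_eq_one b
    rw [hy] at c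
    omega
  have key : ∀ {α : Type} [Fintype α] [DecidableEq α] (e : N ≃* alternatingGroup α),
      ∃ Φ : G →* MulAut (alternatingGroup α), Function.Injective Φ ∧
        ∀ a : alternatingGroup α, ∃ g, Φ g = MulAut.conj a := fun e => by
    refine ⟨(MulAut.congr e).toMonoidHom.comp MulAut.conjNormal,
      (injective_iff_map_eq_one _).mpr fun g hg => hC g fun k hk => ?_,
      fun a => ⟨e.symm a, MulEquiv.ext fun c => ?_⟩⟩
    · have : e (MulAut.conjNormal g (e.symm (e ⟨k, hk⟩))) = e ⟨k, hk⟩ :=
        congrArg (fun f : MulAut _ => f (e ⟨k, hk⟩)) hg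
      rw [e.symm_apply_apply] at this
      exact congrArg Subtype.val (e.injective this)
    · change e (e.symm a * e.symm c * (e.symm a)⁻¹) = a * c * a⁻¹
      simp only [map_mul, map_inv, MulEquiv.apply_symm_apply]
  rcases hN with ⟨⟨e⟩⟩ | ⟨⟨e⟩⟩
  · obtain ⟨Φ, i, s⟩ := key e
    rcases embed (by simp) Φ i
      (fun g => (H1.AltAut.bijective (by simp) (by simp)).2 (Φ g)) s with ⟨⟨f⟩⟩ | k
    · exact Or.inl ⟨⊥, inferInstance, ⟨inferInstance, fun x hx => by rw [mem_bot.1 hx, one_pow]⟩,
        ⟨QuotientGroup.quotientBot.trans f⟩⟩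
    · exact Or.inr (Or.inl k)
  · obtain ⟨Φ, i, s⟩ := key e
    refine Or.inr (Or.inr (embed (by simp) Φ i (fun g => ?_) s))
    obtain ⟨σ, hσ⟩ := H1.AltAut.exists_conj (p := (0 : Fin 6)) (q := 1) (r := 2) (by decide)
      (by decide) (by decide) ⟨3, by decide⟩ (Φ g) (pres fun n => by
        obtain ⟨k, hk⟩ := s n
        rw [← hk, ← map_mul, orderOf_injective Φ i]
        exact h _)
    exact ⟨σ, MulEquiv.ext fun c => Subtype.ext (hσ c).symm⟩

end Cfsg.Agent.O6
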