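/-
Finite groups all of whose elements have order at most six: definitions.
-/
import Cfsg.Agent.H49.Hall
import Cfsg.Prelude.Def_Transfer

set_option autoImplicit false

namespace Cfsg.Agent.O6

open Cfsg Subgroup

abbrev A5 := ↥(alternatingGroup (Fin 5))
abbrev A6 := ↥(alternatingGroup (Fin 6))
abbrev S5 := Equiv.Perm (Fin 5)
abbrev S6 := Equiv.Perm (Fin 6)

/-- every element has order at most six -/
def Hyp (G : Type*) [Group G] : Prop := ∀ g : G, orderOf g ≤ 6

/-- the shape of the non-solvable groups with `Hyp` -/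
def St (G : Type*) [Group G] : Prop :=
  (∃ (Q : Subgroup G) (_ : Q.Normal), IsElementaryAbelian 2 Q ∧ Nonempty (G ⧸ Q ≃* A5)) ∨
    Nonempty (G ≃* S5) ∨ Nonempty (G ≃* A6) ∨ Nonempty (G ≃* S6)

variable {G K : Type*} [Group G] [Group K]

theorem Hyp.of_injective (h : Hyp G) (f : K →* G) (hf : Function.Injective f) : Hyp K :=
  fun k => orderOf_injective f hf k ▸ h (f k)

theorem Hyp.sub (h : Hyp G) (H : Subgroup G) : Hyp H := h.of_injective _ H.subtype_injective

theorem Hyp.of_surjective [Finite G] (h : Hyp G) (f : G →* K) (hf : Function.Surjective f) :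
    Hyp K := fun k => by
  obtain ⟨g, rfl⟩ := hf k
  exact (Nat.le_of_dvd (orderOf_pos g) (orderOf_map_dvd f g)).trans (h g)

theorem Hyp.quo [Finite G] (h : Hyp G) (N : Subgroup G) [N.Normal] : Hyp (G ⧸ N) :=
  h.of_surjective _ (QuotientGroup.mk'_surjective N)

theorem Hyp.not_dvd [Finite G] (h : Hyp G) {m : ℕ} (hm : 6 < m) (g : G) : ¬ m ∣ orderOf g :=
  fun e => absurd ((Nat.le_of_dvd (orderOf_pos g) e).trans (h g)) (by omega)

/-- commuting elements of coprime orders -/
theorem Hyp.mul_le (h : Hyp G) {a b : G} (c : a * b = b * a)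
    (hc : (orderOf a).Coprime (orderOf b)) : orderOf a * orderOf b ≤ 6 :=
  (show Commute a b from c).orderOf_mul_eq_mul_orderOf_of_coprime hc ▸ h (a * b)

theorem Hyp.prime_cases [Finite G] (h : Hyp G) {p : ℕ} (hp : p.Prime) (hd : p ∣ Nat.card G) :
    p = 2 ∨ p = 3 ∨ p = 5 := by
  have := Fact.mk hp
  obtain ⟨g, hg⟩ := exists_prime_orderOf_dvd_card' p hd
  have h1 := hg ▸ h g
  have h2 := hp.two_le
  interval_cases p <;> simp_all (config := { decide := true })

/-- an element commuting with an element of order five has order one or five -/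
theorem Hyp.five [Finite G] (h : Hyp G) {x a : G} (hx : orderOf x = 5) (c : a * x = x * a) :
    a ^ 5 = 1 := by
  by_cases h5 : 5 ∣ orderOf a
  · have h1 := h a
    have h2 := orderOf_pos a
    rw [← show orderOf a = 5 by omega, pow_orderOf_eq_one]
  · have := h.mul_le c (hx ▸ ((Nat.Prime.coprime_iff_not_dvd Nat.prime_five).2 h5).symm)
    have h2 := orderOf_pos a
    rw [hx] at this
    rw [orderOf_eq_one_iff.1 (show orderOf a = 1 by omega), one_pow]

/-- a 2-element has order at most four -/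
theorem Hyp.two [Finite G] (h : Hyp G) {a : G} {k : ℕ} (ha : a ^ 2 ^ k = 1) : a ^ 4 = 1 := by
  obtain ⟨j, -, hj⟩ := (Nat.dvd_prime_pow Nat.prime_two).1 (orderOf_dvd_of_pow_eq_one ha)
  rw [← orderOf_dvd_iff_pow_eq_one, hj]
  rcases j with _ | _ | _ | j
  · norm_num
  · norm_num
  · norm_num
  · exact absurd ⟨2 ^ j, by rw [hj]; ring⟩ (h.not_dvd (m := 8) (by norm_num) a)

/-- a 3-element has order at most three -/
theorem Hyp.three [Finite G] (h : Hyp G) {a : G} {k : ℕ} (ha : a ^ 3 ^ k = 1) : a ^ 3 = 1 := by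
  obtain ⟨j, -, hj⟩ := (Nat.dvd_prime_pow Nat.prime_three).1 (orderOf_dvd_of_pow_eq_one ha)
  rw [← orderOf_dvd_iff_pow_eq_one, hj]
  rcases j with _ | _ | j
  · norm_num
  · norm_num
  · exact absurd ⟨3 ^ j, by rw [hj]; ring⟩ (h.not_dvd (m := 9) (by norm_num) a)

/-- a 2-element commuting with an element of order three has order at most two -/
theorem Hyp.six [Finite G] (h : Hyp G) {y a : G} (hy : orderOf y = 3) (c : a * y = y * a) {k : ℕ}
    (ha : a ^ 2 ^ k = 1) : a * a = 1 := by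
  have h4 := orderOf_dvd_of_pow_eq_one (h.two ha)
  have := h.mul_le c (hy ▸ Nat.Coprime.coprime_dvd_left h4 (by norm_num))
  rw [← sq, ← orderOf_dvd_iff_pow_eq_one]
  rw [hy] at this
  have h2 := orderOf_pos a
  have h3 : orderOf a ≤ 2 := by omega
  interval_cases orderOf a <;> norm_num

theorem St.of_equiv (h : St K) (e : G ≃* K) : St G := by
  rcases h with ⟨Q, _, hQ, ⟨f⟩⟩ | ⟨⟨f⟩⟩ | ⟨⟨f⟩⟩ | ⟨⟨f⟩⟩
  · refine Or.inl ⟨Q.comap e.toMonoidHom, inferInstance, ⟨⟨⟨fun a b => Subtype.ext (e.injective ?_)⟩⟩,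
      fun x hx => e.injective ?_⟩, ⟨(QuotientGroup.congr _ Q e
        (map_comap_eq_self_of_surjective e.surjective Q)).trans f⟩⟩
    · rw [coe_mul, coe_mul, map_mul, map_mul]
      exact congrArg Subtype.val (hQ.1.is_comm.comm ⟨_, a.2⟩ ⟨_, b.2⟩)
    · rw [map_pow, map_one]; exact hQ.2 _ hx
  · exact Or.inr (Or.inl ⟨e.trans f⟩)
  · exact Or.inr (Or.inr (Or.inl ⟨e.trans f⟩))
  · exact Or.inr (Or.inr (Or.inr ⟨e.trans f⟩))

end Cfsg.Agent.O6
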