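/-
Element orders at most six: ring identities for the action on an abelian normal subgroup.
-/
import Cfsg.Agent.O6.Defs
import Cfsg.Agent.H54.CrAmb
import Cfsg.Agent.S0144

set_option autoImplicit false

namespace Cfsg.Agent.O6

open Cfsg Subgroup Finset _root_.Cfsg.Agent.H54.Cr
open scoped IsMulCommutative

section ring

variable {L R : Type*} [Group L] [Ring R] (ρ : L →* R)

theorem sum_fix {ι : Type*} [Fintype ι] {g : ι → L} {e : L} (hi : Function.Injective g)
    (hp : ∀ k, ∃ k', e * g k = g k') : ρ e * ∑ k, ρ (g k) = ∑ k, ρ (g k) := by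
  choose σ hσ using hp
  have hσi : Function.Injective σ := fun a b h =>
    hi (mul_left_cancel (a := e) (by rw [hσ, hσ, h]))
  rw [mul_sum]
  exact Fintype.sum_bijective σ hσi.bijective_of_finite _ _ fun k => by rw [← map_mul, hσ]

theorem frob {ι : Type*} [Fintype ι] (h2 : (2 : R) = 0) (ho : Odd (Fintype.card ι))
    (h4 : ∀ l : L, l ^ 4 = 1 → ∑ i ∈ range 4, ρ l ^ i = 0) {g : ι → L} {e : L}
    (hg : ∀ k, g k ^ 4 = 1) (hi : ∀ j : Fin 3, Function.Injective fun k => g k ^ (j.val + 1))
    (hp : ∀ (j : Fin 3) k, ∃ k', e * g k ^ (j.val + 1) = g k' ^ (j.val + 1)) : ρ e = 1 := by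
  have h0 : ∑ k, ∑ i ∈ range 4, ρ (g k) ^ i = 0 := sum_eq_zero fun k _ => h4 _ (hg k)
  have hc : (Fintype.card ι : R) = 1 := by
    obtain ⟨m, hm⟩ := ho
    rw [hm]; push_cast; rw [h2, zero_mul, zero_add]
  rw [sum_comm] at h0
  simp only [sum_range_succ, range_zero, sum_empty, zero_add, pow_zero, sum_const, card_univ,
    nsmul_eq_mul, hc, ← map_pow] at h0
  rw [map_one, mul_one] at h0
  have h1 := congrArg (ρ e * ·) h0
  have a := sum_fix ρ (hi 0) (hp 0)
  have b := sum_fix ρ (hi 1) (hp 1)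
  have c := sum_fix ρ (hi 2) (hp 2)
  simp only [Fin.val_zero, Fin.val_one, Fin.val_two, zero_add, Nat.reduceAdd] at a b c
  simp only [mul_add, a, b, c, mul_one, mul_zero] at h1
  exact add_right_cancel (add_right_cancel (add_right_cancel (h1.trans h0.symm)))

theorem quad (h3 : (3 : R) = 0) (hq : ∀ l : L, l ^ 3 = 1 → ∑ i ∈ range 3, ρ l ^ i = 0) {u y : L}
    (hu : u * u = 1) (hy : y ^ 3 = 1) (huy : (u * y) ^ 3 = 1) : ρ u = 1 := by
  have iu : u⁻¹ = u := inv_eq_of_mul_eq_one_right hu
  have y2 : y * y = y⁻¹ := eq_inv_of_mul_eq_one_left (by rw [← hy, pow_three'])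
  set b := y * u * y⁻¹ with hb
  set c := y⁻¹ * u * y with hc
  have ab : u * b = c := by
    have : u * b * c⁻¹ = (u * y) ^ 3 := by
      rw [hb, hc, mul_inv_rev, mul_inv_rev, inv_inv, iu]
      calc _ = u * y * u * (y * y)⁻¹ * u * y := by group
        _ = _ := by rw [y2, inv_inv, pow_three']; group
    exact mul_inv_eq_one.1 (this.trans huy)
  have hbb : b * b = 1 := by rw [hb, conj_mul, hu]; group
  have hcc : c * c = 1 := by
    calc _ = y⁻¹ * (u * u) * y := by rw [hc]; group
      _ = 1 := by rw [hu]; group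
  have bu : b * u = c := by
    rw [← inv_eq_of_mul_eq_one_right hcc, ← ab, mul_inv_rev, iu, inv_eq_of_mul_eq_one_right hbb]
  have cu : c * u = b := by rw [← bu, mul_assoc, hu, mul_one]
  have N : ∀ k : L, k * k = 1 → (k * y) ^ 3 = 1 → 1 + ρ k * ρ y + ρ y⁻¹ * ρ k = 0 := fun k hk h => by
    have h1 := hq _ h
    have h2 : (k * y) ^ 2 = y⁻¹ * k := by
      rw [← inv_eq_of_mul_eq_one_right hk, ← mul_inv_rev, inv_eq_of_mul_eq_one_right hk]
      exact eq_inv_of_mul_eq_one_left (by rw [← h, ← pow_succ])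
    simp only [sum_range_succ, range_zero, sum_empty, zero_add, pow_zero, pow_one] at h1
    rwa [← map_pow, h2, map_mul, map_mul] at h1
  have n1 := N 1 (mul_one 1) (by rwa [one_mul])
  have n2 := N u hu huy
  have n3 := N b hbb (by
    rw [show b * y = y * (u * y) * y⁻¹ by rw [hb]; group, conj_pow, huy]; group)
  have n4 := N c hcc (by
    rw [show c * y = y⁻¹ * (u * y) * y⁻¹⁻¹ by rw [hc]; group, conj_pow, huy]; group)
  have uy : ρ u * ρ y = ρ y * ρ c := by rw [← map_mul, ← map_mul, hc]; congr 1; group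
  have by' : ρ b * ρ y = ρ y * ρ u := by rw [← map_mul, ← map_mul, hb]; congr 1; group
  have cy : ρ c * ρ y = ρ y * ρ b := by
    rw [← map_mul, ← map_mul, hb, hc, ← y2]; congr 1
    calc _ = y * y * u * (y * y) := by group
      _ = _ := by rw [y2, ← y2]; group
  have s : (1 + ρ u + ρ b + ρ c) * (1 - ρ u) = 0 := by
    simp only [add_mul, mul_sub, mul_one, one_mul, ← map_mul, hu, bu, cu, map_one]; abel
  have t : (ρ y + ρ y⁻¹) * (1 + ρ u + ρ b + ρ c) + 1 = -3 := by
    rw [map_one] at n1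
    rw [uy] at n2; rw [by'] at n3; rw [cy] at n4
    have := congrArg₂ (· + ·) (congrArg₂ (· + ·) n1 n2) (congrArg₂ (· + ·) n3 n4)
    simp only [add_zero] at this
    rw [eq_neg_iff_add_eq_zero, ← this, show (3 : R) = 1 + 1 + 1 by norm_num]
    noncomm_ring
  have := congrArg (· * (1 - ρ u)) t
  simp only [add_mul (_ * _), mul_assoc, s, h3, mul_zero, zero_add, one_mul, neg_zero,
    zero_mul] at this
  exact (sub_eq_zero.1 this).symm

end ring

variable {G : Type*} [Group G] (V : Subgroup G) [V.Normal] [IsMulCommutative V]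

/-- the action on an abelian normal subgroup -/
def rho : G →* AddMonoid.End (Additive V) where
  toFun g := MonoidHom.toAdditive (cn g : MulAut V).toMonoidHom
  map_one' := by rw [map_one]; rfl
  map_mul' a b := by rw [map_mul]; rfl

variable {V}

theorem rho_apply (g : G) (v : V) : rho V g (Additive.ofMul v) = Additive.ofMul (cn g v) := rfl

theorem rho_eq_one {g : G} : rho V g = 1 ↔ ∀ v ∈ V, g * v = v * g := by
  refine ⟨fun h v hv => ?_, fun h => AddMonoidHom.ext fun v => ?_⟩
  · have := congrArg (fun w => ((Additive.toMul w : V) : G))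
      (DFunLike.congr_fun h (Additive.ofMul (⟨v, hv⟩ : V)))
    exact mul_inv_eq_iff_eq_mul.1 this
  · exact congrArg Additive.ofMul
      (Subtype.ext (mul_inv_eq_iff_eq_mul.2 (h _ (Additive.toMul v).2)) : cn g _ = _)

omit [V.Normal] in
theorem rho_char {p : ℕ} (h : ∀ v ∈ V, v ^ p = 1) : (p : AddMonoid.End (Additive V)) = 0 :=
  AddMonoidHom.ext fun v => congrArg Additive.ofMul
    (Subtype.ext (h _ (Additive.toMul v).2) : Additive.toMul v ^ p = 1)

theorem rho_norm {g : G} {d : ℕ} (h : ∀ v ∈ V, (v * g) ^ d = 1) :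
    ∑ i ∈ range d, rho V g ^ i = 0 := by
  refine AddMonoidHom.ext fun v => ?_
  have h1 := pow_nm g (Additive.toMul v) d
  rw [h _ (Additive.toMul v).2, ← one_mul g, h 1 (one_mem _), mul_one, one_mul] at h1
  have h2 := map_nm (MonoidHom.id V) g (Additive.toMul v) d
  rw [MonoidHom.id_apply, show nm g (Additive.toMul v) d = 1 from Subtype.ext h1.symm] at h2
  simp only [← map_pow]
  refine (AddMonoidHom.finsetSum_apply (fun i => rho V (g ^ i)) (range d) v).trans ?_
  exact Eq.trans (by rw [ofMul_prod]; rfl) (congrArg Additive.ofMul h2).symm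

end Cfsg.Agent.O6
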