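/-
Element orders at most six: abelian normal subgroups with a non-solvable quotient, linear part.
-/
import Cfsg.Agent.O6.ExtA

set_option autoImplicit false

namespace Cfsg.Agent.O6

open Cfsg Subgroup Finset Equiv _root_.Cfsg.Agent.H54.Cr
open scoped IsMulCommutative

instance fact5 : Fact (Nat.Prime 5) := ⟨Nat.prime_five⟩
instance fact3 : Fact (Nat.Prime 3) := ⟨Nat.prime_three⟩

/-- a Frobenius subgroup with complement of order four -/
def Frob (L : Type*) [Group L] : Prop :=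
  ∃ (ι : Type) (_ : Fintype ι) (g : ι → L) (e c : L), Odd (Fintype.card ι) ∧ (∀ k, g k ^ 4 = 1) ∧
    (∀ j : Fin 3, Function.Injective fun k => g k ^ (j.val + 1)) ∧
    (∀ (j : Fin 3) k, ∃ k', e * g k ^ (j.val + 1) = g k' ^ (j.val + 1)) ∧
    e * (c * e * c⁻¹) ≠ 1 ∧ (e * (c * e * c⁻¹)) ^ 5 = 1

theorem frob_s5 : Frob S5 :=
  ⟨Fin 5, inferInstance, fun k => (swap 0 1 * swap 1 2 * swap 2 3 * swap 3 4) ^ k.val *
    (swap 1 2 * swap 2 4 * swap 4 3), swap 0 1 * swap 1 2 * swap 2 3 * swap 3 4, 1,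
    by decide +kernel⟩

theorem frob_s6 : Frob S6 :=
  ⟨Fin 5, inferInstance, fun k => (swap 0 1 * swap 1 2 * swap 2 3 * swap 3 4) ^ k.val *
    (swap 1 2 * swap 2 4 * swap 4 3), swap 0 1 * swap 1 2 * swap 2 3 * swap 3 4, 1,
    by decide +kernel⟩

/-- an even permutation -/
abbrev ev {n : ℕ} (σ : Perm (Fin n)) (h : Perm.sign σ = 1 := by decide +kernel) :
    alternatingGroup (Fin n) := ⟨σ, Perm.mem_alternatingGroup.2 h⟩

theorem frob_a6 : Frob A6 :=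
  ⟨Fin 3 × Fin 3, inferInstance, fun k => ev (swap 0 1 * swap 1 2) ^ k.1.val *
    ev (swap 3 4 * swap 4 5) ^ k.2.val * ev (swap 0 3 * swap 1 4 * swap 4 2 * swap 2 5),
    ev (swap 0 1 * swap 1 2), ev (swap 0 2 * swap 2 4 * swap 1 3 * swap 3 5), by decide +kernel⟩

/-- a subgroup `A₄` -/
def HasA4 (L : Type*) [Group L] : Prop :=
  ∃ u y : L, u ≠ 1 ∧ u * u = 1 ∧ y ^ 3 = 1 ∧ (u * y) ^ 3 = 1

theorem a4_a5 : HasA4 A5 :=
  ⟨ev (swap 0 1 * swap 2 3), ev (swap 0 1 * swap 1 2), by decide +kernel⟩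

theorem a4_a6 : HasA4 A6 :=
  ⟨ev (swap 0 1 * swap 2 3), ev (swap 0 1 * swap 1 2), by decide +kernel⟩

theorem a5_five : ∃ a b : A5, a ^ 3 = 1 ∧ b ^ 3 = 1 ∧ a ≠ 1 ∧ b ≠ 1 ∧ a * b ≠ 1 ∧ (a * b) ^ 5 = 1 :=
  ⟨ev (swap 0 1 * swap 1 2), ev (swap 2 3 * swap 3 4), by decide +kernel⟩

theorem a5_d10 : ∃ x t : A5, x ≠ 1 ∧ x ^ 5 = 1 ∧ t * t = 1 ∧ t * x * t⁻¹ = x⁻¹ :=
  ⟨ev (swap 0 1 * swap 1 2 * swap 2 3 * swap 3 4), ev (swap 1 4 * swap 2 3), by decide +kernel⟩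

variable {G K : Type*} [Group G] [Group K]

theorem HasA4.map (h : HasA4 K) (f : K →* G) (hf : Function.Injective f) : HasA4 G := by
  obtain ⟨u, y, h1, h2, h3, h4⟩ := h
  refine ⟨f u, f y, ?_, ?_⟩
  · rwa [Ne, map_eq_one_iff f hf]
  · simp only [← map_mul, ← map_pow, h2, h3, h4, map_one, and_self]

theorem HasA4.klein (h : HasA4 K) {R : Type*} [Ring R] (ρ : K →* R) (h5 : (5 : R) = 0)
    (h2 : ∀ l : K, l ≠ 1 → l * l = 1 → ∑ i ∈ range 2, ρ l ^ i = 0) : (1 : R) = 0 := by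
  obtain ⟨u, y, u1, hu, hy, huy⟩ := h
  have y2 : y * y = y⁻¹ := eq_inv_of_mul_eq_one_left (by rw [← hy, pow_three'])
  have ab : u * (y * u * y⁻¹) = y⁻¹ * u * y⁻¹⁻¹ := by
    refine mul_inv_eq_one.1 (Eq.trans ?_ huy)
    rw [mul_inv_rev, mul_inv_rev, inv_inv, inv_eq_of_mul_eq_one_right hu]
    calc _ = u * y * u * (y * y)⁻¹ * u * y := by group
      _ = _ := by rw [y2, inv_inv, pow_three']; group
  have N : ∀ g : K, ρ (g * u * g⁻¹) = -1 := fun g => by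
    have := h2 (g * u * g⁻¹) (by simpa using u1) (by rw [conj_mul, hu]; group)
    simp only [sum_range_succ, range_zero, sum_empty, zero_add, pow_zero, pow_one] at this
    exact eq_neg_of_add_eq_zero_right this
  have h1 := N y⁻¹
  rw [← ab, map_mul, N y, show ρ u = -1 by simpa using N 1, neg_mul_neg, one_mul] at h1
  have h3 : (2 : R) = 0 := by rw [← one_add_one_eq_two]; exact add_eq_zero_iff_eq_neg.2 h1
  rw [show (1 : R) = 5 - 2 * 2 by norm_num, h5, h3]; simp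

variable [Finite G]

theorem Hyp.card23 (h : Hyp G) (h5 : ¬ 5 ∣ Nat.card G) : ∃ a b, Nat.card G = 2 ^ a * 3 ^ b := by
  have : Nat.card G ∣ 2 ^ Nat.card G * 3 ^ Nat.card G := by
    refine (Nat.dvd_iff_prime_pow_dvd_dvd _ _).2 fun p k hp hk => ?_
    rcases k with _ | k
    · simp
    have hk' : k + 1 ≤ Nat.card G :=
      (Nat.lt_pow_self hp.one_lt).le.trans (Nat.le_of_dvd Nat.card_pos hk)
    have hd := (dvd_pow_self p k.succ_ne_zero).trans hk
    rcases h.prime_cases hp hd with rfl | rfl | rfl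
    · exact (pow_dvd_pow _ hk').mul_right _
    · exact (pow_dvd_pow _ hk').mul_left _
    · exact absurd hd h5
  obtain ⟨m, n, hm, hn, e⟩ := (Nat.dvd_mul).1 this
  obtain ⟨a, -, rfl⟩ := (Nat.dvd_prime_pow Nat.prime_two).1 hm
  obtain ⟨b, -, rfl⟩ := (Nat.dvd_prime_pow Nat.prime_three).1 hn
  exact ⟨a, b, e.symm⟩

/-- only the identity among elements of order dividing `2 ^ k` or `3 ^ k` commutes with a 5-element -/
theorem Hyp.fpf (h : Hyp G) {x a : G} (hx : orderOf x = 5) (c : a * x = x * a) {m : ℕ}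
    (hm : m.Coprime 5) (ha : a ^ m = 1) : a = 1 :=
  (pow_eq_one_iff_of_coprime hm).1 ⟨ha, h.five hx c⟩

theorem Hyp.cent5 (h : Hyp G) {H : Subgroup G} {a : G} (h1 : a ≠ 1) {m : ℕ} (hm : m.Coprime 5)
    (ha : a ^ m = 1) (hH : ∀ g ∈ H, a * g = g * a) : ¬ 5 ∣ Nat.card H := fun h5 => by
  obtain ⟨x, hx⟩ := exists_prime_orderOf_dvd_card' 5 h5
  exact h1 (h.fpf ((orderOf_coe x).trans hx) (hH _ x.2) hm ha)

theorem Hyp.solv23 (h : Hyp G) (h5 : ¬ 5 ∣ Nat.card G) : Group.IsSolvable G := by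
  obtain ⟨a, b, e⟩ := h.card23 h5
  exact S0144.result 2 3 a b Nat.prime_two Nat.prime_three e

theorem Hyp.ord5 (h : Hyp G) (f : G →* K) {x : G} (h1 : f x ≠ 1) (h5 : f x ^ 5 = 1) :
    orderOf x = 5 := by
  have h2 := orderOf_map_dvd f x
  rw [orderOf_eq_prime h5 h1] at h2
  have := h x
  have := orderOf_pos x
  omega

theorem Hyp.lift3 (h : Hyp G) (f : G →* K) {x : G} (h1 : f x ≠ 1) (h3 : f x ^ 3 = 1) :
    orderOf (x ^ 4) = 3 ∧ f (x ^ 4) = f x := by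
  have h2 := orderOf_map_dvd f x
  rw [orderOf_eq_prime h3 h1] at h2
  have e : f (x ^ 4) = f x := by rw [map_pow, pow_succ, h3, one_mul]
  have h4 := h x
  have h5 := orderOf_pos x
  refine ⟨orderOf_eq_prime ?_ fun h0 => h1 (by rw [← e, h0, map_one]), e⟩
  rw [← pow_mul, ← orderOf_dvd_iff_pow_eq_one]
  obtain h6 | h6 : orderOf x = 3 ∨ orderOf x = 6 := by omega
  all_goals rw [h6]; norm_num

theorem St.a4 (h : Hyp G) (hs : St G) : HasA4 G := by
  rcases hs with ⟨Q, _, hQ, ⟨f⟩⟩ | ⟨⟨f⟩⟩ | ⟨⟨f⟩⟩ | ⟨⟨f⟩⟩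
  · by_cases hb : Q = ⊥
    · subst hb
      exact a4_a5.map (f.symm.trans QuotientGroup.quotientBot).toMonoidHom (MulEquiv.injective _)
    obtain ⟨⟨q, hq⟩, q1⟩ := ne_bot_iff_exists_ne_one.1 hb
    have q1 : q ≠ 1 := fun e => q1 (Subtype.ext e)
    set π := f.toMonoidHom.comp (QuotientGroup.mk' Q)
    have hπ : Function.Surjective π := f.surjective.comp (QuotientGroup.mk'_surjective Q)
    obtain ⟨a, b, a3, b3, a1, b1, ab1, ab5⟩ := a5_five
    obtain ⟨a, rfl⟩ := hπ a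
    obtain ⟨b, rfl⟩ := hπ b
    obtain ⟨oa, ea⟩ := h.lift3 π a1 a3
    obtain ⟨ob, eb⟩ := h.lift3 π b1 b3
    have ox := h.ord5 π (x := a ^ 4 * b ^ 4) (by rwa [map_mul, ea, eb]) (by rwa [map_mul, ea, eb])
    obtain ⟨y, oy, hy⟩ : ∃ y : G, orderOf y = 3 ∧ q * y ≠ y * q := by
      by_contra hn
      push Not at hn
      exact q1 (h.fpf ox ((show Commute q _ from hn _ oa).mul_right (hn _ ob)) (by norm_num)
        (hQ.2 q hq))
    have y3 : y ^ 3 = 1 := oy ▸ pow_orderOf_eq_one y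
    have cQ : ∀ a ∈ Q, ∀ b ∈ Q, a * b = b * a := fun a ha b hb =>
      congrArg Subtype.val (hQ.1.is_comm.comm ⟨a, ha⟩ ⟨b, hb⟩)
    have sQ : ∀ a ∈ Q, a * a = 1 := fun a ha => by rw [← sq, hQ.2 a ha]
    have n := (inferInstance : Q.Normal)
    have hu : q * (y * q * y⁻¹) ∈ Q := mul_mem hq (n.conj_mem _ hq y)
    have u1 : q * (y * q * y⁻¹) ≠ 1 := fun e => hy (by
      rw [← mul_inv_eq_iff_eq_mul.1 (mul_left_cancel (e.trans (sQ q hq).symm))])
    have u3 : (q * (y * q * y⁻¹) * y) ^ 3 = 1 := by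
      calc _ = q * (y * (q * q) * y⁻¹) * (y ^ 2 * (q * q) * (y ^ 2)⁻¹) * (y ^ 3 * q) := by
            simp only [pow_succ]; group
        _ = 1 := by rw [sQ q hq, y3]; simpa using sQ q hq
    exact ⟨_, y, u1, sQ _ hu, y3, u3⟩
  · exact (a4_a5.map _ (alternatingGroup _).subtype_injective).map f.symm.toMonoidHom
      f.symm.injective
  · exact a4_a6.map f.symm.toMonoidHom f.symm.injective
  · exact (a4_a6.map _ (alternatingGroup _).subtype_injective).map f.symm.toMonoidHom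
      f.symm.injective

variable {V : Subgroup G} [V.Normal] [IsMulCommutative V]

omit [Finite G] [V.Normal] in
theorem one_ne (hV : V ≠ ⊥) : (1 : AddMonoid.End (Additive V)) ≠ 0 := fun e => by
  obtain ⟨v, hv⟩ := ne_bot_iff_exists_ne_one.1 hV
  exact hv (DFunLike.congr_fun e (Additive.ofMul v))

omit [Finite G] in
theorem le_ker_rho : V ≤ (rho V).ker := fun a ha => rho_eq_one.2 fun v hv =>
  congrArg Subtype.val (mul_comm (⟨a, ha⟩ : V) ⟨v, hv⟩)

theorem ext5 (h : Hyp G) (hV : V ≠ ⊥) (h5 : ∀ v ∈ V, v ^ 5 = 1) (hs : St (G ⧸ V)) : False := by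
  refine one_ne hV ((hs.a4 (h.quo V)).klein (QuotientGroup.lift V (rho V) le_ker_rho)
    (by exact_mod_cast rho_char h5) fun l l1 l2 => ?_)
  obtain ⟨g, rfl⟩ := QuotientGroup.mk_surjective l
  refine rho_norm fun v hv => ?_
  have e : ((v * g : G) : G ⧸ V) = g := by
    rw [QuotientGroup.mk_mul, (QuotientGroup.eq_one_iff v).2 hv, one_mul]
  have h2 := orderOf_map_dvd (QuotientGroup.mk' V) (v * g)
  rw [QuotientGroup.mk'_apply, e, orderOf_eq_prime (by rw [sq, l2]) l1] at h2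
  have h10 : orderOf (v * g) ∣ 10 := orderOf_dvd_of_pow_eq_one (by
    rw [show 10 = 2 * 5 from rfl, pow_mul]
    exact h5 _ ((QuotientGroup.eq_one_iff _).1 (by rw [QuotientGroup.mk_pow, e, sq, l2])))
  have := h (v * g)
  have := orderOf_pos (v * g)
  rw [← orderOf_dvd_iff_pow_eq_one]
  interval_cases orderOf (v * g) <;> omega

theorem ext3 (h : Hyp G) (h3 : ∀ v ∈ V, v ^ 3 = 1) {N : Subgroup G} [N.Normal]
    (hN : ∀ g, g ∈ N ↔ rho V g = 1) (hs : St (G ⧸ N)) : False := by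
  obtain ⟨u, y, u1, hu, hy, huy⟩ := hs.a4 (h.quo _)
  have c3 : (3 : AddMonoid.End (Additive V)) = 0 := by exact_mod_cast rho_char h3
  have key : ∀ g : G, orderOf g = 3 → ∑ i ∈ range 3, rho V g ^ i = 0 := fun g o => by
    refine rho_norm fun v hv => h.three (k := 2) ?_
    rw [show 3 ^ 2 = 3 * 3 from rfl, pow_mul]
    refine h3 _ ((QuotientGroup.eq_one_iff _).1 ?_)
    rw [QuotientGroup.mk_pow, QuotientGroup.mk_mul, (QuotientGroup.eq_one_iff v).2 hv, one_mul,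
      ← QuotientGroup.mk_pow, show g ^ 3 = 1 from o ▸ pow_orderOf_eq_one g, QuotientGroup.mk_one]
  obtain ⟨u, rfl⟩ := QuotientGroup.mk_surjective u
  refine u1 ((QuotientGroup.eq_one_iff u).2 ((hN u).2
    (quad (QuotientGroup.lift N (rho V) fun g hg => (hN g).1 hg) c3 (fun l hl => ?_) hu hy huy)))
  by_cases l1 : l = 1
  · rw [l1, map_one, ← c3]; norm_num
  obtain ⟨g, rfl⟩ := QuotientGroup.mk'_surjective _ l
  obtain ⟨o, e⟩ := h.lift3 _ l1 hl
  rw [← e]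
  exact key _ o

theorem ext2 (h : Hyp G) (hV : V ≠ ⊥) (h2 : ∀ v ∈ V, v ^ 2 = 1) (f : G ⧸ V ≃* K) (hK : Frob K) :
    False := by
  obtain ⟨ι, _, g, e, c, ho, hg, hi, hp, x1, x5⟩ := hK
  set ρ := (QuotientGroup.lift V (rho V) le_ker_rho).comp f.symm.toMonoidHom
  set π := f.toMonoidHom.comp (QuotientGroup.mk' V)
  have hπ : Function.Surjective π := f.surjective.comp (QuotientGroup.mk'_surjective V)
  have hρ : ∀ a, ρ (π a) = rho V a := fun a => by simp [ρ, π]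
  have hk : ∀ a, π a = 1 ↔ a ∈ V := fun a => by simp [π]
  have he : ρ e = 1 := frob ρ (by exact_mod_cast rho_char h2) ho (fun l hl => by
    obtain ⟨a, rfl⟩ := hπ l
    rw [hρ]
    refine rho_norm fun v hv => h.two (k := 3) ?_
    rw [show 2 ^ 3 = 4 * 2 from rfl, pow_mul]
    exact h2 _ ((hk _).1 (by rw [map_pow, map_mul, (hk v).2 hv, one_mul, hl]))) hg hi hp
  obtain ⟨x, hx⟩ := hπ (e * (c * e * c⁻¹))
  have : rho V x = 1 := by
    rw [← hρ, hx, map_mul, map_mul, map_mul, he, one_mul, mul_one, ← map_mul, mul_inv_cancel, map_one]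
  obtain ⟨⟨v, hv⟩, v1⟩ := ne_bot_iff_exists_ne_one.1 hV
  exact v1 (Subtype.ext (h.fpf (h.ord5 π (hx ▸ x1) (hx ▸ x5)) (rho_eq_one.1 this v hv).symm
    (by norm_num) (h2 v hv)))

end Cfsg.Agent.O6
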