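/-
Element orders at most six: groups with a nontrivial solvable normal subgroup.
-/
import Cfsg.Agent.O6.ExtB
import Cfsg.Agent.H2.MinNormal

set_option autoImplicit false

namespace Cfsg.Agent.O6

open Cfsg Subgroup
open scoped commutatorElement IsMulCommutative

variable {G : Type*} [Group G] [Finite G]

theorem Hyp.d10 (h : Hyp G) (π : G →* A5) (hπ : Function.Surjective π)
    (hQ : ∀ q, π q = 1 → q ^ 4 = 1) :
    ∃ x t : G, orderOf x = 5 ∧ π x ≠ 1 ∧ π x ^ 5 = 1 ∧ t * t = 1 ∧ t * x * t⁻¹ = x⁻¹ := by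
  obtain ⟨x, t, x1, x5, t2, tx⟩ := a5_d10
  obtain ⟨x, rfl⟩ := hπ x
  obtain ⟨t, rfl⟩ := hπ t
  have ox := h.ord5 π x1 x5
  have fp : ∀ q, π q = 1 → q * x = x * q → q = 1 := fun q hq c =>
    h.fpf ox c (by norm_num) (hQ q hq)
  let φ : π.ker → π.ker := fun r => ⟨(r : G) * x⁻¹ * (r : G)⁻¹ * x, by
    rw [MonoidHom.mem_ker, map_mul, map_mul, map_mul, map_inv, map_inv, r.2]; group⟩
  have hφ : Function.Injective φ := fun r s e => by
    have e' : (r : G) * x⁻¹ * (r : G)⁻¹ = s * x⁻¹ * (s : G)⁻¹ :=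
      mul_right_cancel (congrArg Subtype.val e)
    refine Subtype.ext (inv_mul_eq_one.1 (fp _ (s⁻¹ * r).2 ?_)).symm
    calc _ = (s : G)⁻¹ * ((r : G) * x⁻¹ * (r : G)⁻¹)⁻¹ * r := by simp [mul_assoc]
      _ = _ := by rw [e']; simp [mul_assoc]
  obtain ⟨r, hr⟩ := hφ.surjective_of_finite (Equiv.refl _) ⟨t * x * t⁻¹ * x, by
    rw [MonoidHom.mem_ker, map_mul, map_mul, map_mul, map_inv, tx, inv_mul_cancel]⟩
  have hr' : (r : G) * x⁻¹ * (r : G)⁻¹ = t * x * t⁻¹ :=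
    mul_right_cancel (congrArg Subtype.val hr)
  have e : (r : G)⁻¹ * t * x * ((r : G)⁻¹ * t)⁻¹ = x⁻¹ := by
    calc _ = (r : G)⁻¹ * (t * x * t⁻¹) * r := by group
      _ = _ := by rw [← hr']; group
  refine ⟨x, (r : G)⁻¹ * t, ox, x1, x5, fp _ ?_ ?_, e⟩
  · rw [map_mul, map_mul, map_inv, r.2, inv_one, one_mul, t2]
  · generalize (r : G)⁻¹ * t = s at e
    calc _ = s * (s * x * s⁻¹) * s := by group
      _ = (s * x * s⁻¹)⁻¹ * (s * s) := by conv_lhs => rw [e]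
                                          group
      _ = _ := by rw [e, inv_inv]

theorem Hyp.gamma (h : Hyp G) (π : G →* A5) (hπ : Function.Surjective π) {V : Subgroup G}
    [V.Normal] (h2 : ∀ v ∈ V, v * v = 1) (hc : ∀ v ∈ V, ∀ a, π a = 1 → v * a = a * v)
    (hs : ∀ a, π a = 1 → a * a ∈ V) {w : G} (hw : π w = 1) : w * w = 1 := by
  have h4 : ∀ q, π q = 1 → q ^ 4 = 1 := fun q hq => by
    rw [← h2 _ (hs q hq)]; simp [pow_succ, mul_assoc]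
  obtain ⟨x, t, ox, x1, x5, t2, tx⟩ := h.d10 π hπ h4
  have it : t⁻¹ = t := inv_eq_of_mul_eq_one_right t2
  have tx1 : ∀ a, t * (x * a * x⁻¹) * t⁻¹ = x⁻¹ * (t * a * t⁻¹) * x⁻¹⁻¹ := fun a => by
    conv_rhs => rw [← tx]
    group
  have tx2 : ∀ a, t * (x⁻¹ * a * x⁻¹⁻¹) * t⁻¹ = x * (t * a * t⁻¹) * x⁻¹ := fun a => by
    calc _ = (t * x * t⁻¹)⁻¹ * (t * a * t⁻¹) * (t * x * t⁻¹) := by group
      _ = _ := by rw [tx, inv_inv]
  set f := QuotientGroup.mk' V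
  have hf : ∀ v, f v = 1 ↔ v ∈ V := QuotientGroup.eq_one_iff
  have cj : ∀ g a, π a = 1 → π (g * a * g⁻¹) = 1 := fun g a ha => by simp [ha]
  have ml : ∀ {a b}, π a = 1 → π b = 1 → π (a * b) = 1 := fun ha hb => by simp [ha, hb]
  have sq : ∀ a, π a = 1 → f a * f a = 1 := fun a ha => by rw [← map_mul, hf]; exact hs a ha
  have iv : ∀ a, π a = 1 → (f a)⁻¹ = f a := fun a ha => inv_eq_of_mul_eq_one_right (sq a ha)
  have cm : ∀ a b, π a = 1 → π b = 1 → f a * f b = f b * f a := fun a b ha hb => by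
    rw [← iv a ha, ← iv b hb, ← mul_inv_rev, ← map_mul, iv _ (ml hb ha), map_mul, iv a ha, iv b hb]
  have dec : ∀ a b, f a = f b → ∃ v ∈ V, b = a * v := fun a b e =>
    ⟨a⁻¹ * b, (hf _).1 (by rw [map_mul, map_inv, e, inv_mul_cancel]), by group⟩
  have sqc : ∀ a b, π a = 1 → f a = f b → a * a = 1 → b * b = 1 := fun a b ha e h1 => by
    obtain ⟨v, hv, rfl⟩ := dec a b e
    rw [mul_assoc, ← mul_assoc v, hc v hv a ha, mul_assoc, h2 v hv, mul_one, h1]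
  have x3 : x ^ 3 = x⁻¹ * x⁻¹ := by
    rw [← mul_inv_rev]
    exact eq_inv_of_mul_eq_one_left (by rw [← pow_orderOf_eq_one x, ox]; simp only [pow_succ]; group)
  have nrm : ∀ a, π a = 1 → f a = f (x⁻¹ * a * x⁻¹⁻¹) * f (x⁻¹ * (x⁻¹ * a * x⁻¹⁻¹) * x⁻¹⁻¹) *
      f (x * (x * a * x⁻¹) * x⁻¹) * f (x * a * x⁻¹) := fun a ha => by
    have h5 := pow_orderOf_eq_one (a * x)
    rw [h.ord5 π (by rwa [map_mul, ha, one_mul]) (by rwa [map_mul, ha, one_mul])] at h5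
    rw [← iv _ (cj x a ha), ← iv _ (cj x _ (cj x a ha)), ← iv _ (cj x⁻¹ a ha),
      ← iv _ (cj x⁻¹ _ (cj x⁻¹ a ha)), ← mul_inv_rev, ← mul_inv_rev, ← mul_inv_rev]
    refine eq_inv_of_mul_eq_one_left ?_
    simp only [← map_mul]
    rw [← map_one f, ← h5]; congr 1
    calc _ = a * x * a * x * a * x * (x ^ 3)⁻¹ * (x⁻¹ * x⁻¹) * a * x * a * x := by
          simp only [pow_succ]; group
      _ = _ := by rw [← x3]; simp only [pow_succ]; group
  have c1 : ∀ a, π a = 1 → f (t * a * t⁻¹) = f a → a * a = 1 := fun a ha e => by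
    set q := x * a * x⁻¹ * (x * (x * a * x⁻¹) * x⁻¹) with hq
    have hq1 : π q = 1 := ml (cj x a ha) (cj x _ (cj x a ha))
    have e1 : t * q * (t * q) = t * q * t⁻¹ * q := by rw [it]; group
    refine sqc (t * q * t⁻¹ * q) a (ml (cj t q hq1) hq1) ?_ ?_
    · rw [nrm a ha, hq, ← conj_mul, tx1 (x * a * x⁻¹), tx1 a, map_mul, map_mul, map_mul f (x * a * x⁻¹),
        cm _ _ (cj x a ha) (cj x _ (cj x a ha)), ← mul_assoc]
      simp only [map_mul f, map_inv f] at e ⊢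
      rw [e]
    · have := h.two (a := t * q) (k := 3) (by
        rw [show 2 ^ 3 = 2 * 4 from rfl, pow_mul, pow_two, e1, h4 _ (ml (cj t q hq1) hq1)])
      rw [← e1, ← this]; simp only [pow_succ]; group
  have c2 : ∀ a b, π a = 1 → π b = 1 → f (t * a * t⁻¹) = f a → f (t * b * t⁻¹) = f b →
      a * b = b * a := fun a b ha hb ea eb => by
    rw [← inv_eq_of_mul_eq_one_right (c1 _ (ml ha hb) (by rw [← conj_mul, map_mul, ea, eb, map_mul])),
      mul_inv_rev, inv_eq_of_mul_eq_one_right (c1 a ha ea), inv_eq_of_mul_eq_one_right (c1 b hb eb)]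
  have cV : ∀ a b, π a = 1 → π b = 1 → ⁅a, b⁆ ∈ V := fun a b ha hb => by
    rw [← hf, map_commutatorElement, commutatorElement_eq_one_iff_mul_comm]; exact cm a b ha hb
  have c3 : ∀ u v, π u = 1 → π v = 1 → f (t * u * t⁻¹) = f u → f (t * v * t⁻¹) = f v →
      ⁅u, x * v * x⁻¹⁆ = x⁻¹ * ⁅v, x * u * x⁻¹⁆ * x := fun u v hu hv eu ev => by
    have hm := c2 u _ hu (ml (cj x v hv) (cj x⁻¹ v hv)) eu (by
      rw [← conj_mul, tx1, tx2, map_mul, map_mul f (x * v * x⁻¹), cm _ _ (cj x v hv) (cj x⁻¹ v hv)]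
      simp only [map_mul f, map_inv f] at ev ⊢
      rw [ev])
    have m1 := cV u _ hu (cj x⁻¹ v hv)
    rw [show x⁻¹ * ⁅v, x * u * x⁻¹⁆ * x = ⁅u, x⁻¹ * v * x⁻¹⁻¹⁆⁻¹ by
      simp only [commutatorElement_def]; group]
    refine eq_inv_of_mul_eq_one_left ?_
    calc _ = ⁅u, x * v * x⁻¹⁆ * (x * v * x⁻¹ * ⁅u, x⁻¹ * v * x⁻¹⁻¹⁆) * (x * v * x⁻¹)⁻¹ := by
          rw [← hc _ m1 _ (cj x v hv)]; group
      _ = u * (x * v * x⁻¹ * (x⁻¹ * v * x⁻¹⁻¹)) * u⁻¹ * (x * v * x⁻¹ * (x⁻¹ * v * x⁻¹⁻¹))⁻¹ := by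
          simp [commutatorElement_def, mul_assoc]
      _ = 1 := by rw [hm]; group
  have c4 : ∀ u v, π u = 1 → π v = 1 → f (t * u * t⁻¹) = f u → f (t * v * t⁻¹) = f v →
      u * (x * v * x⁻¹) = x * v * x⁻¹ * u := fun u v hu hv eu ev => by
    have e := c3 u v hu hv eu ev
    rw [c3 v u hv hu ev eu] at e
    refine commutatorElement_eq_one_iff_mul_comm.1 (h.fpf (x := x * x) ?_ ?_ (m := 2) (by norm_num)
      (by rw [pow_two]; exact h2 _ (cV _ _ hu (cj x v hv))))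
    · rw [← pow_two, Nat.Coprime.orderOf_pow (by rw [ox]; norm_num), ox]
    · conv_rhs => rw [e]
      group
  have hA : ∀ b, π b = 1 → f (t * (t * b * t⁻¹ * b) * t⁻¹) = f (t * b * t⁻¹ * b) := fun b hb => by
    rw [← conj_mul, show t * (t * b * t⁻¹) * t⁻¹ = (t * t) * b * (t * t)⁻¹ by group, t2, one_mul,
      inv_one, mul_one, map_mul, map_mul f (t * b * t⁻¹), cm _ _ hb (cj t b hb)]
  have c5 : ∀ b, π b = 1 → ∀ z, f z = f b * f (x * (x * b * x⁻¹) * x⁻¹) → z * z = 1 := by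
    intro b hb z hz
    have hb1 := cj x b hb
    have ha := ml (cj t b hb) hb
    have ha' := ml (cj t _ hb1) hb1
    refine sqc _ z (ml ha (cj x _ ha')) ?_ ?_
    · rw [hz, ← conj_mul, tx1 b, show x * (x⁻¹ * (t * b * t⁻¹) * x⁻¹⁻¹) * x⁻¹ = t * b * t⁻¹ by group,
        map_mul, map_mul f (t * b * t⁻¹), map_mul f (t * b * t⁻¹), cm _ _ (cj t b hb) hb, mul_assoc,
        ← mul_assoc (f (t * b * t⁻¹)), sq _ (cj t b hb), one_mul]
    · rw [← pow_two, (show Commute _ _ from c4 _ _ ha ha' (hA b hb) (hA _ hb1)).mul_pow, pow_two,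
        pow_two, conj_mul, c1 _ ha' (hA _ hb1), c1 _ ha (hA b hb)]
      group
  refine c5 _ (ml (cj x w hw) (cj x _ (cj x w hw))) w ?_
  have e3 : x * (x * (x * w * x⁻¹) * x⁻¹) * x⁻¹ = x⁻¹ * (x⁻¹ * w * x⁻¹⁻¹) * x⁻¹⁻¹ := by
    calc _ = x ^ 3 * w * (x ^ 3)⁻¹ := by simp [pow_succ, mul_assoc]
      _ = _ := by rw [x3]; simp [mul_assoc]
  have e4 : x * (x * (x * (x * w * x⁻¹) * x⁻¹) * x⁻¹) * x⁻¹ = x⁻¹ * w * x⁻¹⁻¹ := by rw [e3]; group
  have i4 := cj x⁻¹ w hw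
  have i1 := cj x w hw
  rw [← conj_mul (b := x) (a := x * w * x⁻¹), ← conj_mul (b := x) (a := x * (x * w * x⁻¹) * x⁻¹), e4,
    e3, map_mul f (x * w * x⁻¹),
    map_mul f (x⁻¹ * (x⁻¹ * w * x⁻¹⁻¹) * x⁻¹⁻¹), nrm w hw, cm _ _ i4 (cj x⁻¹ _ i4), mul_assoc,
    cm _ _ (cj x _ i1) i1, ← map_mul, ← map_mul f (x * w * x⁻¹),
    cm _ _ (ml (cj x⁻¹ _ i4) i4) (ml i1 (cj x _ i1))]

omit [Finite G] in
theorem elem_of_sq {Q : Subgroup G} (h : ∀ a ∈ Q, a * a = 1) : IsElementaryAbelian 2 Q :=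
  ⟨⟨⟨fun a b => Subtype.ext (by
    rw [Subgroup.coe_mul, Subgroup.coe_mul, ← inv_eq_of_mul_eq_one_right (h _ (mul_mem a.2 b.2)),
      mul_inv_rev, inv_eq_of_mul_eq_one_right (h _ a.2), inv_eq_of_mul_eq_one_right (h _ b.2)])⟩⟩,
    fun a ha => by rw [pow_two, h a ha]⟩

theorem Hyp.ext (h : Hyp G) (hG : ¬ Group.IsSolvable G) {N : Subgroup G} (hN : N.Normal)
    (hs : Group.IsSolvable N) (h1 : N ≠ ⊥)
    (ih : ∀ (K : Subgroup G) [K.Normal], K ≠ ⊥ → ¬ Group.IsSolvable (G ⧸ K) → St (G ⧸ K)) :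
    St G := by
  obtain ⟨V, p, hp, _, hV, -, _, hpV, hv, hmin⟩ := H2.exists_minimal_normal_le_of_solvable N hN hs h1
  have ih' : ∀ (K : Subgroup G) [K.Normal], K ≠ ⊥ → Group.IsSolvable K → St (G ⧸ K) :=
    fun K _ k1 ks => ih K k1 fun e => hG ((Group.isSolvable_iff_subgroup_quotient K).2 ⟨ks, e⟩)
  have sV := ih' V hV inferInstance
  obtain ⟨⟨v, hv'⟩, v1⟩ := ne_bot_iff_exists_ne_one.1 hV
  have v1 : v ≠ 1 := fun e => v1 (Subtype.ext e)
  have := Fact.mk hp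
  rcases h.prime_cases hp (orderOf_eq_prime (hv v hv') v1 ▸ orderOf_dvd_natCard v) with
    rfl | rfl | rfl
  rotate_left
  · refine (ext3 h hv (N := (rho V).ker) (fun _ => Iff.rfl) (ih' _ (fun e => hV (le_bot_iff.1
      (e ▸ le_ker_rho))) ((h.sub _).solv23 (h.cent5 v1 (by norm_num) (hv v hv') fun g hg =>
        (rho_eq_one.1 hg v hv').symm)))).elim
  · exact (ext5 h hV hv sV).elim
  rcases sV with ⟨Q, _, hQ, ⟨f⟩⟩ | ⟨⟨f⟩⟩ | ⟨⟨f⟩⟩ | ⟨⟨f⟩⟩
  rotate_left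
  · exact (ext2 h hV hv f frob_s5).elim
  · exact (ext2 h hV hv f frob_a6).elim
  · exact (ext2 h hV hv f frob_s6).elim
  set π := f.toMonoidHom.comp ((QuotientGroup.mk' Q).comp (QuotientGroup.mk' V))
  have hπ : Function.Surjective π := f.surjective.comp
    ((QuotientGroup.mk'_surjective Q).comp (QuotientGroup.mk'_surjective V))
  have hk : ∀ a, π a = 1 ↔ (a : G ⧸ V) ∈ Q := fun a => by simp [π]
  have hs : ∀ a, π a = 1 → a * a ∈ V := fun a ha => by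
    rw [← QuotientGroup.eq_one_iff, QuotientGroup.mk_mul, ← pow_two, hQ.2 _ ((hk a).1 ha)]
  have h2 : IsPGroup 2 π.ker := fun a => ⟨2, Subtype.ext (by
    rw [Subgroup.coe_pow, show 2 ^ 2 = 2 * 2 from rfl, pow_mul, pow_two (a : G)]
    exact hv _ (hs _ a.2))⟩
  have hVk : V ≤ π.ker := fun a ha => (hk a).2 (by rw [(QuotientGroup.eq_one_iff a).2 ha]; simp)
  have hc : V ⊓ centralizer π.ker = V := (hmin _ inferInstance inf_le_left).resolve_left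
    (H49.inf_center_ne_bot_of_nilpotent h2.isNilpotent hVk (by simp [normalizer_eq_top]) hV)
  refine Or.inl ⟨π.ker, inferInstance, elem_of_sq fun a ha => h.gamma π hπ (V := V)
    (fun v hv' => by rw [← pow_two, hv v hv']) (fun v hv' a ha => ?_) hs ha,
    ⟨QuotientGroup.quotientKerEquivOfSurjective π hπ⟩⟩
  exact ((hc.ge hv').2 a ha).symm

end Cfsg.Agent.O6
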