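/-
Element orders at most six: 2-local subgroups of shape `2^n . A₅`.
-/
import Cfsg.Agent.O6.Ext
import Cfsg.Agent.H3.FrobQuo

set_option autoImplicit false

namespace Cfsg.Agent.O6

open Cfsg Subgroup _root_.Cfsg.Agent.H49

variable {G : Type*} [Group G]

/-- an elementary abelian 2-subgroup with automizer `A₅` -/
structure Loc (V : Subgroup G) : Prop where
  ne : V ≠ ⊥
  sq : ∀ v ∈ V, v * v = 1
  ex : ∃ π : 𝒩(V) →* A5, Function.Surjective π ∧ ∀ m, π m = 1 ↔ (m : G) ∈ V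

theorem card_a5 : Nat.card A5 = 60 := by
  rw [nat_card_alternatingGroup, Nat.card_eq_fintype_card, Fintype.card_fin]; rfl

theorem a5_inv : ∀ e : A5, e ≠ 1 → e * e = 1 →
    ∃ m, e * (m * e * m⁻¹) ≠ 1 ∧ (e * (m * e * m⁻¹)) ^ 5 = 1 := by decide +kernel

variable {V E : Subgroup G}

theorem Loc.conj (hV : Loc V) (g : G) : Loc (cj g V) := by
  obtain ⟨π, hπ, hk⟩ := hV.ex
  let e := (cjEquiv g 𝒩(V)).trans (MulEquiv.subgroupCongr (cj_normalizer g V))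
  refine ⟨fun e => hV.ne (cj_eq_bot_iff.1 e), fun v hv => ?_, π.comp e.symm.toMonoidHom,
    hπ.comp e.symm.surjective, fun m => ?_⟩
  · obtain ⟨y, hy, rfl⟩ := mem_cj'.1 hv
    rw [conj_mul, hV.sq y hy]; group
  · obtain ⟨m, rfl⟩ := e.surjective m
    exact (by simp : _ ↔ π m = 1).trans ((hk m).trans conj_mem_cj.symm)

theorem Loc.inv (hV : Loc V) {v : G} (hv : v ∈ V) : v⁻¹ = v :=
  inv_eq_of_mul_eq_one_right (hV.sq v hv)

theorem Loc.ab (hV : Loc V) : IsMulCommutative V := (elem_of_sq hV.sq).1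

theorem Loc.comm (hV : Loc V) {a b : G} (ha : a ∈ V) (hb : b ∈ V) : a * b = b * a :=
  H2.mul_comm_of_mem hV.ab ha hb

theorem Loc.pgrp (hV : Loc V) : IsPGroup 2 V :=
  fun v => ⟨1, Subtype.ext (by simpa [pow_two] using hV.sq _ v.2)⟩

theorem Loc.exists_ne (hV : Loc V) : ∃ v ∈ V, v ≠ 1 := by
  obtain ⟨v, hv⟩ := ne_bot_iff_exists_ne_one.1 hV.ne
  exact ⟨v, v.2, fun e => hv (Subtype.ext e)⟩

theorem Loc.card (hV : Loc V) : Nat.card 𝒩(V) = Nat.card V * 60 := by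
  obtain ⟨π, hπ, hk⟩ := hV.ex
  have e : π.ker = V.subgroupOf 𝒩(V) := Subgroup.ext hk
  rw [← π.ker.card_mul_index, index_ker, MonoidHom.range_eq_top.2 hπ, card_top, card_a5, e,
    Nat.card_congr (subgroupOfEquivOfLe le_normalizer).toEquiv]

variable [Finite G]

theorem Loc.le4 (hV : Loc V) {R : Subgroup G} (hR : IsPGroup 2 R) (hn : R ≤ 𝒩(V)) :
    Nat.card R ≤ Nat.card ↥(V ⊓ R) * 4 := by
  obtain ⟨π, hπ, hk⟩ := hV.ex
  have e : (π.comp (inclusion hn)).ker = V.subgroupOf R := Subgroup.ext fun a => hk _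
  have h1 : V.relIndex R ∣ 60 := by
    rw [relIndex, ← e, index_ker, ← card_a5]; exact card_subgroup_dvd_card _
  obtain ⟨k, hk⟩ := hR.exists_card_eq
  obtain ⟨j, -, hj⟩ := (Nat.dvd_prime_pow Nat.prime_two).1 (hk ▸ relIndex_dvd_card V R)
  rw [← card_inf_mul_relIndex V R, hj]
  rw [hj] at h1
  refine Nat.mul_le_mul_left _ ?_
  rcases j with _ | _ | _ | j
  · norm_num
  · norm_num
  · norm_num
  · exact absurd ((Dvd.intro (2 ^ j) (by ring) : 8 ∣ 2 ^ (j + 1 + 1 + 1)).trans h1) (by norm_num)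

theorem Loc.ge16 (h : Hyp G) (hV : Loc V) : 16 ≤ Nat.card V := by
  obtain ⟨π, hπ, -⟩ := hV.ex
  obtain ⟨x, -, x1, x5, -⟩ := a5_d10
  obtain ⟨x, rfl⟩ := hπ x
  have ox : orderOf (x : G) = 5 := (orderOf_coe x).trans ((h.sub _).ord5 π x1 x5)
  have := H3.relIndex_dvd_card_sub_one (K := ⊥) (zpowers_le.2 x.2) fun v hv v1 a ⟨ha, hc⟩ => by
    by_contra a1
    have oa : orderOf a = 5 := orderOf_eq_prime (by
      obtain ⟨k, rfl⟩ := ha
      rw [← zpow_natCast, ← zpow_mul, mul_comm, zpow_mul, zpow_natCast, ← ox, pow_orderOf_eq_one,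
        one_zpow]) a1
    exact v1 (h.fpf oa (mem_cent1.1 hc).symm (m := 2) (by norm_num) (by rw [pow_two, hV.sq v hv]))
  rw [relIndex_bot_left, Nat.card_zpowers, ox] at this
  have h1 := (one_lt_card_iff_ne_bot V).2 hV.ne
  obtain ⟨k, hk⟩ := hV.pgrp.exists_card_eq
  rw [hk] at this h1 ⊢
  rcases k with _ | _ | _ | _ | k
  · omega
  · omega
  · omega
  · omega
  · exact (Nat.pow_le_pow_right (by norm_num) (by omega) : 2 ^ 4 ≤ 2 ^ (k + 1 + 1 + 1 + 1))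

theorem Loc.cent (h : Hyp G) (hV : Loc V) : 𝒞(V) ≤ V := by
  obtain ⟨π, hπ, hk⟩ := hV.ex
  obtain ⟨v, hv, v1⟩ := hV.exists_ne
  have hn := normal_subgroupOf (norm_cent (le_refl 𝒩(V)))
  rcases (hn.map π hπ).eq_bot_or_eq_top with e | e
  · exact fun c hc => (hk ⟨c, cent_le_norm V hc⟩).1 (mem_bot.1 (e ▸ mem_map_of_mem π hc))
  · obtain ⟨x, -, x1, x5, -⟩ := a5_d10
    obtain ⟨x, hx, rfl⟩ : x ∈ (𝒞(V).subgroupOf 𝒩(V)).map π := e ▸ mem_top x
    exact absurd (h.fpf ((orderOf_coe x).trans ((h.sub _).ord5 π x1 x5)) (hx v hv) (m := 2)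
      (by norm_num) (by rw [pow_two, hV.sq v hv])) v1

/-- the commutator map with an element normalizing `V` -/
def Loc.cm (hV : Loc V) {e : G} (he : e ∈ 𝒩(V)) : V →* G :=
  MonoidHom.mk' (fun v => v * (e * v * e⁻¹)) fun a b => by
    rw [Subgroup.coe_mul, ← conj_mul, mul_assoc, ← mul_assoc (b : G),
      hV.comm b.2 (conj_mem_of_norm le_rfl he a.2)]
    simp only [mul_assoc]

theorem Loc.inv_spec (h : Hyp G) (hV : Loc V) {e : G} (he : e ∈ 𝒩(V)) (eV : e ∉ V) (ee : e * e = 1) :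
    Nat.card V = Nat.card ↥(V ⊓ 𝒞[e]) * Nat.card ↥(V ⊓ 𝒞[e]) ∧ (hV.cm he).range = V ⊓ 𝒞[e] := by
  obtain ⟨π, hπ, hk⟩ := hV.ex
  have ie : e⁻¹ = e := inv_eq_of_mul_eq_one_right ee
  have hr : (hV.cm he).range ≤ V ⊓ 𝒞[e] := by
    rintro _ ⟨v, rfl⟩
    have hv := conj_mem_of_norm le_rfl he v.2
    refine ⟨mul_mem v.2 hv, mem_cent1.2 ?_⟩
    change v * (e * v * e⁻¹) * e = e * (v * (e * v * e⁻¹))
    conv_rhs => rw [hV.comm v.2 hv, ← mul_assoc, ← mul_assoc, ← mul_assoc, ee, ie]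
    group
  have hker : (hV.cm he).ker = 𝒞[e].subgroupOf V := Subgroup.ext fun v => by
    change v * (e * v * e⁻¹) = 1 ↔ _
    rw [mem_subgroupOf, mem_cent1, mul_eq_one_iff_inv_eq, hV.inv v.2, eq_mul_inv_iff_mul_eq]
  have h1 := (hV.cm he).ker.card_mul_index
  rw [index_ker, hker, card_subgroupOf, inf_comm] at h1
  obtain ⟨m, m1, m5⟩ := a5_inv (π ⟨e, he⟩) (fun e1 => eV ((hk _).1 e1)) (by
    rw [← map_mul, ← map_one π]; exact congrArg π (Subtype.ext ee))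
  obtain ⟨m, rfl⟩ := hπ m
  have ox : orderOf (e * (m * e * (m : G)⁻¹)) = 5 := (orderOf_coe (⟨e, he⟩ * (m * ⟨e, he⟩ * m⁻¹))).trans
    ((h.sub _).ord5 π (by simpa using m1) (by simpa using m5))
  have hd : (V ⊓ 𝒞[e]) ⊓ cj (m : G) (V ⊓ 𝒞[e]) = ⊥ := eq_bot_iff.2 fun v ⟨⟨hv, c1⟩, c2⟩ => by
    rw [cj_inf, cj_cent1] at c2
    exact h.fpf ox ((show Commute v e from mem_cent1.1 c1).mul_right (mem_cent1.1 c2.2)) (m := 2)
      (by norm_num) (by rw [pow_two, hV.sq v hv])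
  have hl : cj (m : G) (V ⊓ 𝒞[e]) ≤ V := cj_le_of_mem_norm inf_le_left m.2
  have h2 := card_le_of_le (sup_le (inf_le_left (b := 𝒞[e])) hl)
  rw [card_sup_of_disjoint (Or.inl (norm_of_cent (le_cent_of_abelian hV.ab inf_le_left hl))) hd,
    card_cj] at h2
  have h3 := card_le_of_le hr
  have h4 : Nat.card ↥(V ⊓ 𝒞[e]) ≤ Nat.card (hV.cm he).range :=
    Nat.le_of_mul_le_mul_left (h2.trans h1.ge) Nat.card_pos
  exact ⟨by rw [← h1, le_antisymm h3 h4], eq_of_le_of_card_ge hr h4⟩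

theorem Loc.conj_eq (h : Hyp G) (hV : Loc V) {e : G} (he : e ∈ 𝒩(V)) (eV : e ∉ V) (ee : e * e = 1)
    {v : G} (hv : v ∈ V) : ∃ c ∈ V ⊓ 𝒞[e], v * e * v⁻¹ = c * e :=
  ⟨_, (hV.inv_spec h he eV ee).2.le ⟨⟨v, hv⟩, rfl⟩, by
    change _ = v * (e * v * e⁻¹) * e
    rw [hV.inv hv]; group⟩

theorem Loc.sixteen (h : Hyp G) (hV : Loc V) {e : G} (he : e ∈ 𝒩(V)) (eV : e ∉ V) (ee : e * e = 1)
    (h4 : Nat.card ↥(V ⊓ 𝒞[e]) ≤ 4) : Nat.card V = 16 ∧ Nat.card ↥(V ⊓ 𝒞[e]) = 4 := by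
  have h1 := (hV.inv_spec h he eV ee).1
  have h2 := hV.ge16 h
  generalize Nat.card ↥(V ⊓ 𝒞[e]) = c at *
  interval_cases c <;> omega

theorem Loc.sylow (hV : Loc V) {T : Subgroup G} (hT : IsPGroup 2 T) (hn : T ≤ 𝒩(V))
    (hc : Nat.card T = Nat.card V * 4) : IsSylowOf 2 T 𝒩(V) := by
  refine (sylowOf_iff Nat.prime_two).2 ⟨hn, hT, fun hd => ?_⟩
  have := card_inf_mul_relIndex T 𝒩(V)
  rw [inf_eq_left.2 hn, hV.card, hc, mul_assoc] at this
  have := Nat.eq_of_mul_eq_mul_left Nat.card_pos this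
  omega

/-- `V` is weakly closed in its normalizer -/
theorem Loc.weak (h : Hyp G) (hV : Loc V) {g : G} (hg : cj g V ≤ 𝒩(V)) : cj g V = V := by
  have hE := hV.conj g
  have cE := card_cj g V
  have nE := cj_normalizer g V
  generalize hgE : cj g V = E at hE cE hg nE
  by_contra hne
  have key : ∀ e ∈ E, e ∉ V → Nat.card V = 16 ∧ V ⊓ E = V ⊓ 𝒞[e] ∧ Nat.card ↥(V ⊓ E) = 4 := by
    intro e he eV
    have l1 : V ⊓ E ≤ V ⊓ 𝒞[e] := fun v hv => ⟨hv.1, mem_cent1.2 (hE.comm hv.2 he)⟩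
    have h1 := hV.le4 hE.pgrp hg
    have h2 := card_le_of_le l1
    have h3 := (hV.inv_spec h (hg he) eV (hE.sq e he)).1
    obtain ⟨h4, h5⟩ := hV.sixteen h (hg he) eV (hE.sq e he) (Nat.le_of_mul_le_mul_left
      (by rw [← h3]; omega) (Nat.card_pos (α := ↥(V ⊓ 𝒞[e]))))
    exact ⟨h4, eq_of_le_of_card_ge l1 (by omega), by omega⟩
  obtain ⟨e, he, eV⟩ := SetLike.not_le_iff_exists.1 fun l => hne (eq_of_le_of_card_ge l cE.ge)
  obtain ⟨c16, -, c4⟩ := key e he eV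
  have hT : IsPGroup 2 ↥(V ⊔ E) := hV.pgrp.to_sup_of_normal_left' hE.pgrp hg
  have cT := card_sup_mul_card_inf (Or.inr hg)
  rw [cE, c16, c4] at cT
  have TV : V ⊔ E ≤ 𝒩(V) := sup_le le_normalizer hg
  have TE : V ⊔ E ≤ 𝒩(E) := sup_le (le_norm_iff.2 fun v hv a ha => by
    by_cases aV : a ∈ V
    · rwa [hV.comm hv aV, mul_inv_cancel_right]
    obtain ⟨c, hc, e⟩ := hV.conj_eq h (hg ha) aV (hE.sq a ha) hv
    exact e ▸ mul_mem ((key a ha aV).2.1.ge hc).2 ha) le_normalizer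
  have inv : ∀ t ∈ V ⊔ E, t * t = 1 → t ∈ V ∨ t ∈ E := fun t ht tt => by
    obtain ⟨v, hv, a, ha, rfl⟩ := (mem_sup_of_norm_left hg).1 ht
    by_cases aV : a ∈ V
    · exact Or.inl (mul_mem hv aV)
    refine Or.inr (mul_mem ((key a ha aV).2.1.ge ⟨hv, mem_cent1.2 ?_⟩).2 ha)
    rw [← inv_eq_of_mul_eq_one_right tt, mul_inv_rev, hV.inv hv, hE.inv ha]
  have sV := hV.sylow hT TV (by omega)
  obtain ⟨m, hm, hmT⟩ := sylowOf_conj (nE ▸ sV.cj g) (hE.sylow hT TE (by omega))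
  rw [cj_cj] at hmT
  have nV : cj (m * g) V = E := by rw [cj_mul, hgE, cj_eq_of_mem_norm hm]
  generalize m * g = n at hmT nV
  have nE' : cj n E = V := by
    have hF := hE.conj n
    have l : cj n E ≤ V ⊔ E := hmT ▸ cj_mono n le_sup_right
    obtain ⟨a, ha, aE⟩ := SetLike.not_le_iff_exists.1 fun l : cj n E ≤ E =>
      hne (cj_inj.1 ((eq_of_le_of_card_ge l (card_cj n E).ge).trans nV.symm))
    have aV := (inv a (l ha) (hF.sq a ha)).resolve_right aE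
    refine eq_of_le_of_card_ge (fun b hb => (inv b (l hb) (hF.sq b hb)).elim id fun bE => ?_)
      (by rw [card_cj, cE])
    have := (inv _ (l (mul_mem ha hb)) (hF.sq _ (mul_mem ha hb))).resolve_right fun e =>
      aE ((mul_mem_cancel_right bE).1 e)
    exact (mul_mem_cancel_left aV).1 this
  have sw : ∀ s, cj s V = E → cj s E = V → s * s ∈ V ⊔ E → s * s ∈ V := fun s s1 s2 hs => by
    obtain ⟨k, hk⟩ := hT ⟨_, hs⟩
    have s4 := h.two (a := s) (k := k + 1) (by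
      rw [pow_succ', pow_mul, pow_two]; exact congrArg Subtype.val hk)
    refine (inv _ hs (by rw [← s4]; simp [pow_succ, mul_assoc])).elim id fun e => ?_
    rw [← s2, show s * s = s * (s * s) * s⁻¹ by group]
    exact conj_mem_cj.2 e
  have n2 : n ^ 2 ∈ 𝒩(V) ⊓ 𝒩(E) :=
    ⟨mem_norm_iff_cj.2 (by rw [pow_two, cj_mul, nV, nE']),
      mem_norm_iff_cj.2 (by rw [pow_two, cj_mul, nE', nV])⟩
  have e15 : n ^ 15 = n * (n ^ 2) ^ 7 := by rw [← pow_mul, ← pow_succ']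
  have s1 : cj (n ^ 15) V = E := by rw [e15, cj_mul, cj_eq_of_mem_norm (pow_mem n2.1 7), nV]
  have s2 : cj (n ^ 15) E = V := by rw [e15, cj_mul, cj_eq_of_mem_norm (pow_mem n2.2 7), nE']
  have s4 : (n ^ 15) ^ 4 = 1 := by
    rw [← pow_mul, ← orderOf_dvd_iff_pow_eq_one]
    have := h n
    have := orderOf_pos n
    interval_cases orderOf n <;> norm_num
  generalize n ^ 15 = s at s1 s2 s4
  have sN : s ∈ 𝒩(V ⊔ E) := mem_norm_iff_cj.2 (by rw [cj_sup, s1, s2, sup_comm])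
  have ss : s * s ∈ V ⊔ E := by
    have hz : IsPGroup 2 (zpowers (s * s)) := fun a => ⟨1, by
      obtain ⟨_, k, rfl⟩ := a
      refine Subtype.ext ?_
      change ((s * s) ^ k) ^ 2 = 1
      rw [← zpow_natCast, ← zpow_mul, mul_comm, zpow_mul, zpow_natCast, ← pow_two, ← pow_mul, s4,
        one_zpow]⟩
    have l := zpowers_le.2 (mul_mem sN sN)
    rw [Cfsg.IsPiHallOf.eq_of_le sV le_sup_left (sup_le TV (zpowers_le.2 (mem_norm_iff_cj.2 (by
      rw [cj_mul, s1, s2])))) (isPi_of_isPGroup Nat.prime_two (hT.to_sup_of_normal_left' hz l))]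
    exact mem_sup_right (mem_zpowers _)
  obtain ⟨v, hv, rfl⟩ := mem_cj'.1 (s1.ge he)
  have e2 : s * v * (s * v) = s * v * s⁻¹ * (s * s * v)⁻¹⁻¹ := by group
  have := sw (s * v) (by rw [cj_mul, cj_eq_of_mem hv, s1])
    (by rw [cj_mul, cj_eq_of_mem_norm (TE (mem_sup_left hv)), s2])
    (by rw [e2, inv_inv]; exact mul_mem (mem_sup_right he) (mul_mem ss (mem_sup_left hv)))
  rw [e2, inv_inv] at this
  exact eV ((mul_mem_cancel_right (mul_mem (sw s s1 s2 ss) hv)).1 this)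

/-- every 2-subgroup containing `V` normalizes it -/
theorem Loc.two_le (h : Hyp G) (hV : Loc V) {R : Subgroup G} (hR : IsPGroup 2 R) (hl : V ≤ R) :
    R ≤ 𝒩(V) := by
  have := eq_of_inf_norm_le_of_nilpotent hR.isNilpotent (inf_le_left (b := 𝒩(V))) fun s hs =>
    ⟨hs.1, mem_norm_iff_cj.2 (hV.weak h ((cj_le_of_mem_norm (le_inf hl le_normalizer) hs.2).trans
      inf_le_right))⟩
  exact this ▸ inf_le_right

end Cfsg.Agent.O6
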