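/-
Element orders at most six: the subgroup `V` of a 2-local `V . A₅` has trivial intersections.
-/
import Cfsg.Agent.O6.CoreA

set_option autoImplicit false

namespace Cfsg.Agent.O6

open Cfsg Subgroup _root_.Cfsg.Agent.H49

variable {G : Type*} [Group G] [Finite G] {V E : Subgroup G}

set_option synthInstance.maxSize 1024 in
theorem a5_three : ∀ a : A5, a * a = 1 → a ≠ 1 → (∀ z, z * a = a * z → z * z = 1) ∧
    ∃ c, c ≠ 1 ∧ c ^ 3 = 1 ∧ ∀ z, z * a = a * z → c * z * c⁻¹ * a = a * (c * z * c⁻¹) := by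
  decide +kernel

theorem Loc.three (h : Hyp G) (hV : Loc V) {T : Subgroup G} (hT : IsSylowOf 2 T 𝒩(V)) {e : G}
    (he : e ∈ T) (eV : e ∉ V) (ee : e * e = 1) (hc : ∀ t ∈ T, t * e * (e * t)⁻¹ ∈ V) :
    ∃ y ∈ 𝒩(V) ⊓ 𝒩(T), orderOf y = 3 := by
  obtain ⟨π, hπ, hk⟩ := hV.ex
  obtain ⟨h1, c, c1, c3, h2⟩ := a5_three (π ⟨e, hT.le he⟩) (by
    rw [← map_mul, ← map_one π]; exact congrArg π (Subtype.ext ee)) fun e1 => eV ((hk _).1 e1)
  obtain ⟨c, rfl⟩ := hπ c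
  obtain ⟨o, e4⟩ := (h.sub _).lift3 π c1 c3
  have l : T ≤ (𝒞[π ⟨e, hT.le he⟩].comap π).map 𝒩(V).subtype := fun t ht =>
    ⟨⟨t, hT.le ht⟩, mem_cent1.2 (mul_inv_eq_one.1 (by
      rw [← map_mul, ← map_mul, ← map_inv, ← map_mul, hk]; exact hc t ht)), rfl⟩
  have hR := Cfsg.IsPiHallOf.eq_of_le hT l (map_subtype_le _) (isPi_of_isPGroup Nat.prime_two (by
    rintro ⟨_, m, hm, rfl⟩
    refine ⟨2, Subtype.ext ?_⟩
    have := hV.sq _ ((hk (m * m)).1 (by rw [map_mul, h1 _ (mem_cent1.1 hm)]))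
    simpa [pow_succ, mul_assoc] using this))
  refine ⟨_, ⟨(c ^ 4).2, mem_norm_of_cj_le fun t ht => ?_⟩, (orderOf_coe _).trans o⟩
  obtain ⟨t, ht', rfl⟩ := mem_cj'.1 ht
  obtain ⟨m, hm, rfl⟩ := l ht'
  refine hR.ge ⟨c ^ 4 * m * (c ^ 4)⁻¹, mem_cent1.2 ?_, rfl⟩
  rw [map_mul, map_mul, map_inv, e4]
  exact h2 _ (mem_cent1.1 hm)

theorem Loc.nrm (h : Hyp G) (hV : Loc V) {A B : Subgroup G} (hA : A ≤ V) (hB : B ≤ 𝒩(V))
    (sq : ∀ e ∈ B, e * e = 1) (hc : ∀ e ∈ B, e ∉ V → V ⊓ 𝒞[e] ≤ A) : V ≤ 𝒩(A ⊔ B) := fun v hv => by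
  refine mem_norm_of_cj_le ?_
  rw [cj_sup, cj_eq_of_mem_cent (le_cent_of_abelian hV.ab le_rfl hA hv)]
  refine sup_le le_sup_left fun t ht => ?_
  obtain ⟨e, he, rfl⟩ := mem_cj'.1 ht
  by_cases eV : e ∈ V
  · rw [hV.comm hv eV, mul_inv_cancel_right]; exact mem_sup_right he
  obtain ⟨c, hc', e1⟩ := hV.conj_eq h (hB he) eV (sq e he) hv
  exact e1 ▸ mul_mem (mem_sup_left (hc e he eV hc')) (mem_sup_right he)

theorem Loc.pair (h : Hyp G) (hV : Loc V) (hE : Loc E) (hw : ¬ V ≤ 𝒩(E)) (hI : V ⊓ E ≠ ⊥)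
    (hm : ∀ g, cj g E ≠ E → Nat.card ↥(E ⊓ cj g E) ≤ Nat.card ↥(V ⊓ E)) {e : G} (he : e ∈ E)
    (hn : e ∈ 𝒩(V)) (eV : e ∉ V) :
    Nat.card V = 16 ∧ Nat.card ↥(V ⊓ E) = 2 ∧ Nat.card ↥(V ⊓ 𝒩(E)) = 8 ∧
      Nat.card ↥(V ⊓ 𝒞[e]) = 4 ∧ ∀ v ∈ V, v * (e * v * e⁻¹) ∈ E → v ∈ 𝒩(E) := by
  have key : ∀ v ∈ V, v * (e * v * e⁻¹) ∈ E → v ∈ 𝒩(E) := fun v hv hc => by
    by_contra hne
    have l : V ⊓ E ≤ E ⊓ cj v E := fun a ha =>
      ⟨ha.2, mem_cj.2 (by rw [mul_assoc, hV.comm ha.1 hv, inv_mul_cancel_left]; exact ha.2)⟩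
    have e1 := eq_of_le_of_card_ge l (hm v fun e => hne (mem_norm_iff_cj.2 e))
    have m : v * e * v⁻¹ ∈ V := (e1.ge ⟨by
      rw [show v * e * v⁻¹ = v * (e * v * e⁻¹) * e by rw [hV.inv hv]; group]
      exact mul_mem hc he, conj_mem_cj.2 he⟩).1
    exact eV ((mul_mem_cancel_left hv).1 ((mul_mem_cancel_right (inv_mem hv)).1 m))
  obtain ⟨h1, h2⟩ := hV.inv_spec h hn eV (hE.sq e he)
  have l1 : V ⊓ E ≤ V ⊓ 𝒞[e] := fun v hv => ⟨hv.1, mem_cent1.2 (hE.comm hv.2 he)⟩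
  have h3 := ((V ⊓ E).comap (hV.cm hn)).card_mul_index
  have h4 := card_inf_mul_relIndex (V ⊓ E) (V ⊓ 𝒞[e])
  rw [index_comap, h2] at h3
  rw [inf_eq_left.2 l1] at h4
  have h5 : Nat.card ((V ⊓ E).comap (hV.cm hn)) ≤ Nat.card ↥(V ⊓ 𝒩(E)) := by
    rw [← card_map_of_injective V.subtype_injective]
    exact card_le_of_le (by rintro _ ⟨v, hv, rfl⟩; exact ⟨v.2, key v v.2 hv.2⟩)
  have h6 := hE.le4 (hV.pgrp.to_le (inf_le_left (b := 𝒩(E)))) inf_le_right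
  rw [show E ⊓ (V ⊓ 𝒩(E)) = V ⊓ E from le_antisymm (fun a ha => ⟨ha.2.1, ha.1⟩)
    fun a ha => ⟨ha.2, ha.1, le_normalizer ha.2⟩] at h6
  have h7 : Nat.card ((V ⊓ E).comap (hV.cm hn)) = Nat.card ↥(V ⊓ E) * Nat.card ↥(V ⊓ 𝒞[e]) := by
    have h0 : (V ⊓ E).relIndex (V ⊓ 𝒞[e]) ≠ 0 := index_ne_zero_of_finite
    refine Nat.eq_of_mul_eq_mul_right (Nat.pos_of_ne_zero h0) ?_
    rw [h3, h1, mul_right_comm, h4]
  obtain ⟨c16, c4⟩ := hV.sixteen h hn eV (hE.sq e he)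
    (Nat.le_of_mul_le_mul_left (h7.ge.trans (h5.trans h6)) Nat.card_pos)
  have h8 := card_dvd_of_le (inf_le_left : V ⊓ 𝒩(E) ≤ V)
  have h9 : Nat.card ↥(V ⊓ 𝒩(E)) ≠ 16 := fun e =>
    hw (inf_eq_left.1 (eq_of_le_of_card_ge inf_le_left (by omega)))
  have h10 := (one_lt_card_iff_ne_bot _).2 hI
  rw [c16] at h8
  have h11 := Nat.le_of_dvd (by norm_num) h8
  rw [h7, c4] at h5
  refine ⟨c16, ?_⟩
  generalize Nat.card ↥(V ⊓ 𝒩(E)) = a at *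
  interval_cases a <;> first | omega | exact ⟨by omega, rfl, c4, key⟩

omit [Finite G] in
theorem eq_of_card_two {I : Subgroup G} (hI : Nat.card I = 2) {a b : G} (ha : a ∈ I) (hb : b ∈ I)
    (a1 : a ≠ 1) (b1 : b ≠ 1) : a = b := by
  obtain ⟨y, -, hy⟩ := (Nat.card_eq_two_iff' (1 : I)).1 hI
  exact congrArg Subtype.val ((hy ⟨a, ha⟩ fun e => a1 (congrArg Subtype.val e)).trans
    (hy ⟨b, hb⟩ fun e => b1 (congrArg Subtype.val e)).symm)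

theorem pigeon (h : Hyp G) {X A B C I Q : Subgroup G} (cX : Nat.card X = 32) (cA : Nat.card A = 8)
    (cB : Nat.card B = 8) (cC : Nat.card C = 8) (cI : Nat.card I = 2) (AB : A ⊓ B = I)
    (AC : A ⊓ C = I) (BC : B ⊓ C = I) (lA : A ≤ X) (lB : B ≤ X) (lC : C ≤ X)
    (sq : ∀ a, a ∈ A ∨ a ∈ B ∨ a ∈ C → a * a = 1) (hX : IsPGroup 2 X) (cQ : 9 ≤ Nat.card Q)
    (hQ : ∀ u ∈ Q, u ^ 3 = 1) (nX : Q ≤ 𝒩(X)) (cI' : Q ⊔ X ≤ 𝒞(I)) {w : G} (hw : w ∈ X) :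
    w * w = 1 := by
  by_contra ww
  have IA : I ≤ A := AB ▸ inf_le_left
  let F : Q × I → G := fun p => p.1 * w * (p.1 : G)⁻¹ * p.2
  have hF : Function.Injective F := fun ⟨u, i⟩ ⟨u', i'⟩ e => by
    change (u : G) * w * (u : G)⁻¹ * i = u' * w * (u' : G)⁻¹ * i' at e
    have hj := mul_mem i'.2 (inv_mem i.2)
    have hs := mul_mem (inv_mem u'.2) u.2
    have e1 : (u' : G)⁻¹ * u * w * ((u' : G)⁻¹ * u)⁻¹ = w * (i' * (i : G)⁻¹) := by
      calc _ = (u' : G)⁻¹ * (u * w * (u : G)⁻¹ * i) * (i : G)⁻¹ * u' := by group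
        _ = w * (u' : G)⁻¹ * (i' * (i : G)⁻¹ * u') := by rw [e]; group
        _ = _ := by rw [cI' (mem_sup_left u'.2) _ hj]; group
    have e3 : (u : G) = u' := by
      refine (inv_mul_eq_one.1 ?_).symm
      generalize (u' : G)⁻¹ * u = s at hs e1
      generalize (i' : G) * (i : G)⁻¹ = j at hj e1
      by_contra s1
      have e2 : s * s * w * (s * s)⁻¹ = w := by
        calc _ = s * (s * w * s⁻¹) * s⁻¹ := by group
          _ = s * (w * j) * s⁻¹ := by rw [e1]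
          _ = s * w * s⁻¹ * (s * j * s⁻¹) := by group
          _ = _ := by
            rw [← cI' (mem_sup_left hs) _ hj, e1, mul_inv_cancel_right, mul_assoc,
              sq j (Or.inl (IA hj)), mul_one]
      obtain ⟨k, hk⟩ := hX ⟨w, hw⟩
      refine ww (h.six (y := s * s) ?_ (mul_inv_eq_iff_eq_mul.1 e2).symm (congrArg Subtype.val hk))
      have o := orderOf_eq_prime (hQ s hs) s1
      rw [← pow_two, Nat.Coprime.orderOf_pow (by rw [o]; norm_num), o]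
    rw [e3] at e
    exact Prod.ext (Subtype.ext e3) (Subtype.ext (mul_left_cancel e))
  have d : Disjoint ((A : Set G) ∪ B ∪ C) (Set.range F) := by
    rw [Set.disjoint_right]
    rintro _ ⟨⟨u, i⟩, rfl⟩ hm
    have m := conj_mem_of_norm nX u.2 hw
    have := sq _ (or_assoc.1 hm)
    change (u : G) * w * (u : G)⁻¹ * i * (u * w * (u : G)⁻¹ * i) = 1 at this
    rw [mul_assoc, ← mul_assoc (i : G), cI' (mem_sup_right m) _ i.2, mul_assoc _ (i : G),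
      sq _ (Or.inl (IA i.2)), mul_one, conj_mul, conj_eq_one_iff] at this
    exact ww this
  have n1 := Set.ncard_union_add_ncard_inter (A : Set G) B
  have n2 := Set.ncard_union_add_ncard_inter ((A : Set G) ∪ B) C
  have n3 := Set.ncard_union_eq d
  have n4 : ((A : Set G) ∪ B ∪ C ∪ Set.range F).ncard ≤ (X : Set G).ncard :=
    Set.ncard_le_ncard (Set.union_subset (Set.union_subset (Set.union_subset lA lB) lC) (by
      rintro _ ⟨⟨u, i⟩, rfl⟩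
      exact mul_mem (conj_mem_of_norm nX u.2 hw) (lA (IA i.2))))
  rw [Set.union_inter_distrib_right, ← coe_inf, ← coe_inf, AC, BC, Set.union_self] at n2
  rw [← coe_inf, AB] at n1
  rw [Set.ncard_range_of_injective hF, Nat.card_prod, cI] at n3
  have c : ∀ H : Subgroup G, (H : Set G).ncard = Nat.card H := fun H => (Nat.card_coe_set_eq _).symm
  simp only [c] at n1 n2 n4
  omega

theorem Loc.ti_core (h : Hyp G) (hV : Loc V) (hE : Loc E) (wV : ¬ V ≤ 𝒩(E)) (wE : ¬ E ≤ 𝒩(V))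
    (hI : V ⊓ E ≠ ⊥) (mV : ∀ g, cj g V ≠ V → Nat.card ↥(V ⊓ cj g V) ≤ Nat.card ↥(V ⊓ E))
    (mE : ∀ g, cj g E ≠ E → Nat.card ↥(E ⊓ cj g E) ≤ Nat.card ↥(V ⊓ E)) {e : G} (he : e ∈ E)
    (hn : e ∈ 𝒩(V)) (eV : e ∉ V) : False := by
  have P := @Loc.pair _ _ _ _ _ h hV hE wV hI mE
  have P' := @Loc.pair _ _ _ _ _ h hE hV wE (inf_comm V E ▸ hI) (inf_comm V E ▸ mV)
  obtain ⟨c16, cI, cA, c4, key⟩ := P he hn eV
  obtain ⟨a0, ha0, a0E⟩ := SetLike.not_le_iff_exists.1 fun l : V ⊓ 𝒩(E) ≤ E => by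
    have := card_le_of_le (le_inf inf_le_left l); omega
  obtain ⟨-, -, cB, -⟩ := P' ha0.1 ha0.2 a0E
  have cen : ∀ e ∈ E ⊓ 𝒩(V), e ∉ V → V ⊓ 𝒞[e] ≤ V ⊓ 𝒩(E) := fun e he eV v hv =>
    ⟨hv.1, (P he.1 he.2 eV).2.2.2.2 v hv.1 (by
      rw [← mem_cent1.1 hv.2, mul_inv_cancel_right, hV.sq v hv.1]; exact one_mem _)⟩
  have cen' : ∀ e ∈ V ⊓ 𝒩(E), e ∉ E → E ⊓ 𝒞[e] ≤ E ⊓ 𝒩(V) := fun e he eV v hv =>
    ⟨hv.1, (P' he.1 he.2 eV).2.2.2.2 v hv.1 (by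
      rw [← mem_cent1.1 hv.2, mul_inv_cancel_right, hE.sq v hv.1]; exact one_mem _)⟩
  set A := V ⊓ 𝒩(E) with hA
  set B := E ⊓ 𝒩(V) with hB
  have BA : B ≤ 𝒩(A) := norm_inf inf_le_right (norm_norm (norm_of_le inf_le_left))
  have AB : A ⊓ B = V ⊓ E := le_antisymm (inf_le_inf inf_le_left inf_le_left) fun a ha =>
    ⟨⟨ha.1, le_normalizer ha.2⟩, ha.2, le_normalizer ha.1⟩
  have VB : V ⊓ B = V ⊓ E := le_antisymm (inf_le_inf_left _ inf_le_left) fun a ha =>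
    ⟨ha.1, ha.2, le_normalizer ha.1⟩
  have cX := card_sup_mul_card_inf (Or.inr BA)
  have cT := card_sup_mul_card_inf (H := V) (K := B) (Or.inr inf_le_right)
  rw [AB, cI, cA, cB] at cX
  rw [VB, cI, c16, cB] at cT
  have VX := hV.nrm h (A := A) (B := B) inf_le_left inf_le_right (fun e he => hE.sq e he.1) cen
  have EX := hE.nrm h (A := B) (B := A) inf_le_left inf_le_right (fun e he => hV.sq e he.1) cen'
  rw [sup_comm] at EX
  have pT : IsPGroup 2 ↥(V ⊔ B) := hV.pgrp.to_sup_of_normal_left' (hE.pgrp.to_le inf_le_left)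
    inf_le_right
  have XT : A ⊔ B ≤ V ⊔ B := sup_le_sup_right inf_le_left _
  have dT : ∀ t ∈ V ⊔ B, ∃ v ∈ V, ∃ b ∈ B, t = v * b := fun t =>
    (mem_sup_of_norm_left inf_le_right).1
  have VI : V ≤ 𝒞(V ⊓ E) := le_cent_of_abelian hV.ab le_rfl inf_le_left
  have EI : E ≤ 𝒞(V ⊓ E) := le_cent_of_abelian hE.ab le_rfl inf_le_right
  have TI : V ⊔ B ≤ 𝒞(V ⊓ E) := sup_le VI (inf_le_left.trans EI)
  obtain ⟨y, ⟨yV, yT⟩, oy⟩ := hV.three h (hV.sylow pT (sup_le le_normalizer inf_le_right) (by omega))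
    (mem_sup_right ⟨he, hn⟩) eV (hE.sq e he) fun t ht => by
      obtain ⟨v, hv, b, hb, rfl⟩ := dT t ht
      rw [show v * b * e * (e * (v * b))⁻¹ = v * (b * e * b⁻¹ * v⁻¹ * e⁻¹) by group,
        hE.comm hb.1 he, mul_inv_cancel_right]
      exact mul_mem hv (conj_mem_of_norm le_rfl hn (inv_mem hv))
  have yI : y ∈ 𝒞(V ⊓ E) := fun d hd => by
    by_cases d1 : d = 1
    · simp [d1]
    have zV := conj_mem_of_norm le_rfl yV hd.1
    have zT : V ⊔ B ≤ 𝒞[y * d * y⁻¹] := by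
      rw [← cj_cent1, ← cj_eq_of_mem_norm yT]; exact cj_mono y (TI.trans (cent_le_cent1 hd))
    have zE : y * d * y⁻¹ ∈ E := by
      by_contra zE
      have := (P' zV (cen e ⟨he, hn⟩ eV ⟨zV, mem_cent1_comm.1 (zT (mem_sup_right ⟨he, hn⟩))⟩).2
        zE).2.2.2.1
      have := card_le_of_le (le_inf inf_le_left (le_sup_right.trans zT) : B ≤ _)
      omega
    exact (mul_inv_eq_iff_eq_mul.1 (eq_of_card_two cI ⟨zV, zE⟩ hd (by simpa using d1) d1)).symm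
  have yc : ∀ d ∈ V ⊓ E, y * d * y⁻¹ = d := fun d hd => by rw [← yI d hd, mul_inv_cancel_right]
  have yX : y ∈ 𝒩(A ⊔ B) := by
    refine mem_norm_of_cj_le ?_
    rw [cj_sup]
    refine sup_le (fun z hz => ?_) fun z hz => ?_
    · obtain ⟨a, ha, rfl⟩ := mem_cj'.1 hz
      have zV := conj_mem_of_norm le_rfl yV ha.1
      obtain ⟨v, hv, b, hb, e1⟩ := dT _ (conj_mem_of_norm' le_rfl yT (mem_sup_right ⟨he, hn⟩))
      have m := conj_mem_of_norm le_rfl hb.2 ha.1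
      refine mem_sup_left ⟨zV, key _ zV ?_⟩
      rw [show y * a * y⁻¹ * (e * (y * a * y⁻¹) * e⁻¹) =
        y * (a * (y⁻¹ * e * y * a * (y⁻¹ * e * y)⁻¹)) * y⁻¹ by group, e1,
        show v * b * a * (v * b)⁻¹ = v * (b * a * b⁻¹) * v⁻¹ by group, hV.comm hv m,
        mul_inv_cancel_right]
      have : a * (b * a * b⁻¹) ∈ E := by
        rw [show a * (b * a * b⁻¹) = a * b * a⁻¹ * b⁻¹ by rw [hV.inv ha.1]; group]
        exact mul_mem (conj_mem_of_norm le_rfl ha.2 hb.1) (inv_mem hb.1)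
      rwa [yc _ ⟨mul_mem ha.1 m, this⟩]
    · obtain ⟨a, ha, rfl⟩ := mem_cj'.1 hz
      by_cases aV : a ∈ V
      · rw [yc _ ⟨aV, ha.1⟩]; exact mem_sup_right ha
      obtain ⟨v, hv, b, hb, e1⟩ := dT _ (conj_mem_of_norm le_rfl yT (mem_sup_right ha))
      have tt : v * b * (v * b) = 1 := by rw [← e1, conj_mul, hE.sq a ha.1]; group
      refine e1 ▸ mul_mem (mem_sup_left (cen b hb (fun bV => aV ?_) ⟨hv, mem_cent1.2 ?_⟩))
        (mem_sup_right hb)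
      · rw [show a = y⁻¹ * (v * b) * y by rw [← e1]; group]
        exact conj_mem_of_norm' le_rfl yV (mul_mem hv bV)
      · rw [← inv_eq_of_mul_eq_one_right tt, mul_inv_rev, hV.inv hv, hE.inv hb.1]
  obtain ⟨Q, hQ, yQ⟩ := exists_sylowOf_ge (p := 3) (isPi_of_isPGroup Nat.prime_three
    (IsPGroup.of_card (n := 1) (by rw [Nat.card_zpowers, oy]; rfl)))
    (zpowers_le.2 (mem_inf.2 ⟨yX, yI⟩))
  have pQ := ((sylowOf_iff Nat.prime_three).1 hQ).2.1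
  obtain ⟨k, hk⟩ := pQ.exists_card_eq
  by_cases c9 : 9 ≤ Nat.card Q
  · obtain ⟨a, ha, aE⟩ := SetLike.not_le_iff_exists.1 wV
    have aI : cj a (V ⊓ E) = V ⊓ E := cj_eq_of_mem_cent (VI ha)
    have l1 : V ⊓ E ≤ cj a B := aI ▸ cj_mono a (AB ▸ inf_le_right)
    have l2 : E ⊓ cj a E = V ⊓ E := (eq_of_le_of_card_ge (le_inf inf_le_right
      (l1.trans (cj_mono a inf_le_left))) (mE a fun e => aE (mem_norm_iff_cj.2 e))).symm
    obtain ⟨b, hb, bc⟩ := SetLike.not_le_iff_exists.1 fun l : A ≤ 𝒞[e] => by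
      have := card_le_of_le (le_inf inf_le_left l : A ≤ _); omega
    have := pigeon h (X := A ⊔ B) (C := cj a B) (by omega) cA cB ((card_cj a B).trans cB) cI AB
      (le_antisymm (by
        rw [← aI, cj_inf a V, cj_eq_of_mem ha]; exact inf_le_inf inf_le_left (cj_mono a inf_le_left))
        (le_inf (AB ▸ inf_le_left) l1))
      (le_antisymm (l2 ▸ inf_le_inf inf_le_left (cj_mono a inf_le_left))
        (le_inf (AB ▸ inf_le_right) l1)) le_sup_left le_sup_right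
      (cj_le_of_mem_norm le_sup_right (VX ha)) (by
        rintro c (hc | hc | hc)
        exacts [hV.sq c hc.1, hE.sq c hc.1, (hE.conj a).sq c (cj_mono a inf_le_left hc)])
      (pT.to_le XT) c9 (fun u hu => by
        obtain ⟨j, hj⟩ := pQ ⟨u, hu⟩
        exact h.three (congrArg Subtype.val hj)) (hQ.le.trans inf_le_left)
      (sup_le (hQ.le.trans inf_le_right) (XT.trans TI))
      (mul_mem (mem_sup_left hb) (mem_sup_right ⟨he, hn⟩))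
    refine bc (mem_cent1.2 ?_)
    rw [← inv_eq_of_mul_eq_one_right this, mul_inv_rev, hV.inv hb.1, hE.inv he]
  refine wE ((le_inf EX EI).trans (le_of_sylowOf_le fun p hp hd => ?_))
  rcases (h.sub _).prime_cases hp hd with rfl | rfl | rfl
  · obtain ⟨R, hR, l⟩ := exists_sylowOf_ge (isPi_of_isPGroup hp hV.pgrp) (le_inf VX VI)
    exact ⟨R, hR, hV.two_le h ((sylowOf_iff hp).1 hR).2.1 l⟩
  · refine ⟨Q, hQ, (eq_of_le_of_card_ge yQ ?_).ge.trans (zpowers_le.2 yV)⟩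
    rw [Nat.card_zpowers, oy, hk]
    rw [hk] at c9
    rcases k with _ | _ | k
    · norm_num
    · norm_num
    · exact absurd (Nat.pow_le_pow_right (by norm_num) (by omega) : 3 ^ 2 ≤ _) c9
  · obtain ⟨⟨d, hd'⟩, d1⟩ := ne_bot_iff_exists_ne_one.1 hI
    exact absurd hd (h.cent5 (fun e => d1 (Subtype.ext e)) (m := 2) (by norm_num)
      (by rw [pow_two, hV.sq d hd'.1]) fun g hg => hg.2 d hd')

/-- the centralizer of every involution has characteristic two -/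
def Ch2 (G : Type*) [Group G] : Prop := ∀ d : G, d ≠ 1 → d * d = 1 →
  ∃ W : Subgroup G, IsPGroup 2 W ∧ 𝒞[d] ≤ 𝒩(W) ∧ 𝒞[d] ⊓ 𝒞(W) ≤ W

theorem Loc.ti (h : Hyp G) (hV : Loc V) (hc : Ch2 G) {g : G} (hg : g ∉ 𝒩(V)) :
    V ⊓ cj g V = ⊥ := by
  obtain ⟨⟨g, hg'⟩, hm⟩ := @Finite.exists_max {g // g ∉ 𝒩(V)} ℕ _ ⟨⟨g, hg⟩⟩ _
    fun g => Nat.card ↥(V ⊓ cj g.1 V)
  suffices V ⊓ cj g V = ⊥ from (card_le_one_iff_eq_bot _).1 ((hm ⟨_, hg⟩).trans (by simp [this]))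
  by_contra hI
  have hE := hV.conj g
  have mV : ∀ a, cj a V ≠ V → Nat.card ↥(V ⊓ cj a V) ≤ Nat.card ↥(V ⊓ cj g V) := fun a ha =>
    hm ⟨a, fun e => ha (cj_eq_of_mem_norm e)⟩
  have mE : ∀ a, cj a (cj g V) ≠ cj g V →
      Nat.card ↥(cj g V ⊓ cj a (cj g V)) ≤ Nat.card ↥(V ⊓ cj g V) := fun a ha => by
    have e : cj a (cj g V) = cj g (cj (g⁻¹ * a * g) V) := by simp [cj_cj, mul_assoc]
    rw [e, ← cj_inf, card_cj]
    exact mV _ fun e' => ha (by rw [e, e'])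
  have wE : ¬ cj g V ≤ 𝒩(V) := fun l => hg' (mem_norm_iff_cj.2 (hV.weak h l))
  have wV : ¬ V ≤ 𝒩(cj g V) := fun l => hg' (mem_norm_iff_cj.2 (by
    have := hE.weak h (g := g⁻¹) (by rwa [cj_inv_cj])
    rwa [cj_inv_cj, eq_comm] at this))
  generalize cj g V = E at *
  obtain ⟨⟨d, hd⟩, d1⟩ := ne_bot_iff_exists_ne_one.1 hI
  obtain ⟨W, pW, nW, cW⟩ := hc d (fun e => d1 (Subtype.ext e)) (hV.sq d hd.1)
  have VI : V ≤ 𝒞(V ⊓ E) := le_cent_of_abelian hV.ab le_rfl inf_le_left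
  have EI : E ≤ 𝒞(V ⊓ E) := le_cent_of_abelian hE.ab le_rfl inf_le_right
  have Id := (cent_le_cent1 hd).trans nW
  have WV : W ≤ 𝒩(V) := le_sup_left.trans
    (hV.two_le h (pW.to_sup_of_normal_left' hV.pgrp (VI.trans Id)) le_sup_right)
  have WE : W ≤ 𝒩(E) := le_sup_left.trans
    (hE.two_le h (pW.to_sup_of_normal_left' hE.pgrp (EI.trans Id)) le_sup_right)
  by_cases h1 : W ⊓ E ≤ V
  swap
  · obtain ⟨e, he, eV⟩ := SetLike.not_le_iff_exists.1 h1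
    exact hV.ti_core h hE wV wE hI mV mE he.2 (WV he.1) eV
  by_cases h2 : W ⊓ V ≤ E
  swap
  · obtain ⟨e, he, eV⟩ := SetLike.not_le_iff_exists.1 h2
    exact hE.ti_core h hV wE wV (inf_comm V E ▸ hI) (inf_comm V E ▸ mE) (inf_comm V E ▸ mV) he.2
      (WE he.1) eV
  let K : Subgroup G :=
    { carrier := {k | k ∈ 𝒞(V ⊓ E) ∧ ∀ w ∈ W, k * w * k⁻¹ * w⁻¹ ∈ V ⊓ E}
      one_mem' := ⟨one_mem _, fun w _ => by simp⟩
      mul_mem' := fun {a b} ha hb => ⟨mul_mem ha.1 hb.1, fun w hw => by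
        rw [show a * b * w * (a * b)⁻¹ * w⁻¹ = a * (b * w * b⁻¹ * w⁻¹) * a⁻¹ * (a * w * a⁻¹ * w⁻¹)
          by group, ← ha.1 _ (hb.2 w hw), mul_inv_cancel_right]
        exact mul_mem (hb.2 w hw) (ha.2 w hw)⟩
      inv_mem' := fun {a} ha => ⟨inv_mem ha.1, fun w hw => by
        rw [show a⁻¹ * w * a⁻¹⁻¹ * w⁻¹ = a⁻¹ * ((a * w * a⁻¹ * w⁻¹)⁻¹ * a) by group,
          ha.1 _ (inv_mem (ha.2 w hw)), inv_mul_cancel_left]
        exact inv_mem (ha.2 w hw)⟩ }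
  have cm : ∀ {U : Subgroup G}, W ≤ 𝒩(U) → U ≤ 𝒞(V ⊓ E) → ∀ k ∈ U, ∀ w ∈ W,
      k * w * k⁻¹ * w⁻¹ ∈ W ⊓ U := fun {U} l l' k hk w hw =>
    ⟨mul_mem (conj_mem_of_norm (l'.trans Id) hk hw) (W.inv_mem hw), by
      rw [mul_assoc, mul_assoc, ← mul_assoc w]
      exact mul_mem hk (conj_mem_of_norm l hw (U.inv_mem hk))⟩
  have pK : IsPGroup 2 K := fun ⟨k, hk⟩ => by
    have : k * k ∈ W := cW ⟨cent_le_cent1 hd (mul_mem hk.1 hk.1), fun w hw => by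
      have i := hk.2 w hw
      refine (mul_inv_eq_iff_eq_mul.1 (mul_inv_eq_one.1 ?_)).symm
      rw [show k * k * w * (k * k)⁻¹ * w⁻¹ = k * (k * w * k⁻¹ * w⁻¹) * k⁻¹ * (k * w * k⁻¹ * w⁻¹)
        by group, ← hk.1 _ i, mul_inv_cancel_right, hV.sq _ i.1]⟩
    obtain ⟨j, hj⟩ := pW ⟨_, this⟩
    exact ⟨j + 1, Subtype.ext (by
      change k ^ 2 ^ (j + 1) = 1
      rw [pow_succ', pow_mul, pow_two]; exact congrArg Subtype.val hj)⟩
  have EK : E ≤ K := fun k hk =>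
    ⟨EI hk, fun w hw => ⟨h1 (cm WE EI k hk w hw), (cm WE EI k hk w hw).2⟩⟩
  exact wE (EK.trans (hV.two_le h pK fun k hk =>
    ⟨VI hk, fun w hw => ⟨(cm WV VI k hk w hw).2, h2 (cm WV VI k hk w hw)⟩⟩))

end Cfsg.Agent.O6
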