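/-
Solvable groups whose element orders are exactly 1, ..., 6.
-/
import Cfsg.Agent.O6.Defs
import Cfsg.Agent.H49.Frob
import Cfsg.Agent.H19.Nilp
import Cfsg.Agent.H2.MinNormal
import Cfsg.Agent.H42.Index2
import Cfsg.Agent.S0040
import Cfsg.Agent.S0106

set_option autoImplicit false

namespace Cfsg.Agent.O6

open Cfsg Subgroup

namespace Solv

open _root_.Cfsg.Agent.H49
open scoped IsMulCommutative

variable {G : Type*} [Group G] [Finite G]

omit [Finite G] in
theorem not12 (h : Hyp G) {a u : G} (ha : orderOf a = 4) (hu : orderOf u = 3) :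
    a * u ≠ u * a := fun c => by
  have := h.mul_le c (by rw [ha, hu]; norm_num)
  rw [ha, hu] at this
  omega

theorem cent (h : Hyp G) {x b : G} (ox : orderOf x = 5) (c : b * x = x * b) {m : ℕ}
    (hm : ¬ 5 ∣ m) (hb : b ^ m = 1) : b = 1 :=
  (pow_eq_one_iff_of_coprime ((Nat.Prime.coprime_iff_not_dvd Nat.prime_five).2 hm)).1
    ⟨h.five ox c, hb⟩

theorem order_five (h : Hyp G) {a : G} (h5 : 5 ∣ orderOf a) : orderOf a = 5 := by
  have h1 := h a
  have h2 := orderOf_pos a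
  omega

theorem inverts (h : Hyp G) {K : Subgroup G} (hK : K.Normal) (h3 : Nat.card K = 3)
    (hi : ¬ 3 ∣ K.index) {y w : G} (hy : orderOf y = 4) (hw : orderOf w = 3) :
    y * w * y⁻¹ = w⁻¹ := by
  have hwK : w ∈ K := by
    have h1 : w ∈ zpowers (w ^ K.index) := mem_zpowers_pow_iff.2 (by
      rw [hw]; exact ((Nat.Prime.coprime_iff_not_dvd Nat.prime_three).2 hi).symm)
    exact zpowers_le.2 (K.pow_index_mem w) h1
  have hz : zpowers w = K := eq_of_le_of_card_ge (zpowers_le.2 hwK)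
    (by rw [h3, Nat.card_zpowers, hw])
  have h1 : y * w * y⁻¹ ∈ zpowers w := hz ▸ hK.conj_mem w hwK y
  classical
  rw [mem_zpowers_iff_mem_range_orderOf, hw] at h1
  obtain ⟨k, hk, e⟩ := Finset.mem_image.1 h1
  rw [Finset.mem_range] at hk
  interval_cases k
  · rw [pow_zero, eq_comm, conj_eq_one_iff] at e
    simp [e] at hw
  · rw [pow_one, eq_comm, mul_inv_eq_iff_eq_mul] at e
    exact absurd e (not12 h hy hw)
  · rw [← e, eq_inv_iff_mul_eq_one, ← pow_succ]
    exact orderOf_dvd_iff_pow_eq_one.1 hw.dvd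

/-- the complements -/
theorem compl (h : Hyp G) (h5 : ¬ 5 ∣ Nat.card G)
    (syl : ∀ (p : ℕ) [Fact p.Prime] (P : Sylow p G),
      IsCyclic P ∨ ∃ n : ℕ, Nonempty (P ≃* QuaternionGroup (2 ^ n)))
    {y w : G} (hy : orderOf y = 4) (hw : orderOf w = 3) :
    Nonempty (G ≃* QuaternionGroup 3) ∨
      Nonempty (G ≃* Matrix.SpecialLinearGroup (Fin 2) (ZMod 3)) := by
  have : Fact (Nat.Prime 3) := ⟨Nat.prime_three⟩
  have h9 : ¬ 9 ∣ Nat.card G := fun h9 => by
    obtain ⟨P⟩ : Nonempty (Sylow 3 G) := inferInstance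
    have h1 : 3 ^ 2 ∣ Nat.card P := P.pow_dvd_card_of_pow_dvd_card h9
    rcases syl 3 P with hc | ⟨n, ⟨e⟩⟩
    · obtain ⟨g, hg⟩ := hc.exists_ofOrder_eq_natCard
      rw [← hg, ← Subgroup.orderOf_coe] at h1
      exact h.not_dvd (by norm_num) _ h1
    · rw [Nat.card_congr e.toEquiv, Nat.card_eq_fintype_card, QuaternionGroup.card,
        show 4 * 2 ^ n = 2 ^ (n + 2) by ring] at h1
      exact absurd (Nat.prime_three.dvd_of_dvd_pow ((dvd_pow_self 3 two_ne_zero).trans h1))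
        (by norm_num)
  have idx : ∀ P : Sylow 2 G, (P : Subgroup G).index = 3 := fun P => by
    have h3 : 3 ∣ (P : Subgroup G).index := by
      obtain ⟨j, hj⟩ := P.isPGroup'.exists_card_eq
      have h1 : 3 ∣ Nat.card P * (P : Subgroup G).index := by
        rw [card_mul_index]; exact hw ▸ orderOf_dvd_natCard w
      rw [hj] at h1
      exact (Nat.Coprime.pow_right j (by norm_num)).dvd_of_dvd_mul_left h1
    obtain ⟨m, hm⟩ := h3
    by_contra hne
    have hm1 : m ≠ 1 := fun e => hne (by rw [hm, e])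
    obtain ⟨r, hr, hrm⟩ := Nat.exists_prime_and_dvd hm1
    have h1 : r ∣ (P : Subgroup G).index := hm ▸ hrm.mul_left 3
    rcases h.prime_cases hr (h1.trans (index_dvd_card _)) with rfl | rfl | rfl
    · exact P.not_dvd_index h1
    · exact h9 ((show 3 * 3 ∣ (P : Subgroup G).index from hm ▸ Nat.mul_dvd_mul_left 3 hrm).trans
        (index_dvd_card _))
    · exact h5 (h1.trans (index_dvd_card _))
  have npc : HasNormalPComplement 2 G → ∀ y : G, orderOf y = 4 → y * w * y⁻¹ = w⁻¹ := by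
    rintro ⟨P, K, hK, hc⟩ y hy
    refine inverts h hK (hc.index_eq_card.symm.trans (idx P)) ?_ hy hw
    obtain ⟨j, hj⟩ := P.isPGroup'.exists_card_eq
    rw [hc.symm.index_eq_card, hj]
    exact fun e => absurd (Nat.prime_three.dvd_of_dvd_pow e) (by norm_num)
  have hy2 : IsPGroup 2 (zpowers y) := IsPGroup.of_card (n := 2) (by rw [Nat.card_zpowers, hy]; rfl)
  obtain ⟨P, hP⟩ := hy2.exists_le_sylow
  have h2 : orderOf (⟨y, hP (mem_zpowers y)⟩ : P) = 4 := by rw [Subgroup.orderOf_mk, hy]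
  have h4 : 4 ∣ Nat.card P := h2 ▸ orderOf_dvd_natCard _
  have hcases : Nat.card P = 4 ∨ Nonempty (P ≃* QuaternionGroup (2 ^ 1)) := by
    rcases syl 2 P with hc | ⟨n, ⟨e⟩⟩
    · obtain ⟨g, hg⟩ := hc.exists_ofOrder_eq_natCard
      have h1 := h.sub _ g
      have h3 : 0 < Nat.card P := Nat.card_pos
      left
      omega
    · have h1 := h.sub _ (e.symm (QuaternionGroup.a 1))
      rw [MulEquiv.orderOf_eq, QuaternionGroup.orderOf_a_one] at h1
      rcases n with _ | _ | n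
      · left
        rw [Nat.card_congr e.toEquiv, Nat.card_eq_fintype_card, QuaternionGroup.card]
        rfl
      · exact Or.inr ⟨e⟩
      · have : 0 < 2 ^ n := by positivity
        rw [pow_succ, pow_succ] at h1
        omega
  have hG := (P : Subgroup G).card_mul_index
  rw [idx P] at hG
  rcases hcases with h4 | ⟨⟨e⟩⟩
  · left
    have hc : IsCyclic P := isCyclic_of_orderOf_eq_card _ (h2.trans h4.symm)
    have hm : (Nat.card G).minFac = 2 := (Nat.minFac_eq_two_iff _).2 (by omega)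
    have hi := npc ⟨P, _, inferInstance, hc.isComplement' hm⟩ y hy
    have y4 : y ^ 4 = 1 := hy ▸ pow_orderOf_eq_one y
    have w3 : w ^ 3 = 1 := hw ▸ pow_orderOf_eq_one w
    have c : Commute w (y ^ 2) := by
      rw [commute_iff_eq, eq_comm, ← mul_inv_eq_iff_eq_mul]
      calc y ^ 2 * w * (y ^ 2)⁻¹ = y * (y * w * y⁻¹) * y⁻¹ := by rw [sq]; group
        _ = y * w⁻¹ * y⁻¹ := by rw [hi]
        _ = (y * w * y⁻¹)⁻¹ := by group
        _ = w := by rw [hi, inv_inv]
    have o2 : orderOf (y ^ 2) = 2 := by rw [orderOf_pow' _ two_ne_zero, hy]; rfl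
    have o6 : orderOf (w * y ^ 2) = 2 * 3 := by
      rw [c.orderOf_mul_eq_mul_orderOf_of_coprime (by rw [hw, o2]; norm_num), hw, o2]
    obtain ⟨f⟩ := H42.quaternion_recog (a := w * y ^ 2) (b := y) (n := 3) (by norm_num) o6
      (by rw [c.mul_pow, w3, one_mul, ← pow_mul, show 2 * 3 = 4 + 2 from rfl, pow_add, y4, one_mul,
        sq])
      (by
        rw [eq_inv_iff_mul_eq_one]
        calc y * (w * y ^ 2) * y⁻¹ * (w * y ^ 2) = (y * w * y⁻¹) * (y ^ 2 * w) * y ^ 2 := by group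
          _ = y ^ 4 := by rw [hi, ← c.eq]; group
          _ = 1 := y4)
      (fun hm => by
        have := orderOf_dvd_of_mem_zpowers hm
        rw [hy, o6] at this
        norm_num at this)
    have ht : zpowers (w * y ^ 2) ⊔ zpowers y = ⊤ := by
      refine eq_top_of_card_eq _ ?_
      rw [Nat.card_congr f.toEquiv, Nat.card_eq_fintype_card, QuaternionGroup.card]
      omega
    exact ⟨topEquiv.symm.trans ((MulEquiv.subgroupCongr ht.symm).trans f)⟩
  · right
    have h8 : Nat.card P = 8 := by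
      rw [Nat.card_congr e.toEquiv, Nat.card_eq_fintype_card, QuaternionGroup.card]
      rfl
    rcases S0106.result P 1 le_rfl ⟨e⟩ with hn | ⟨H, K, hK, ⟨f⟩⟩
    · exfalso
      have o : ∀ i, orderOf ((e.symm (QuaternionGroup.xa i) : P) : G) = 4 := fun i => by
        rw [Subgroup.orderOf_coe, MulEquiv.orderOf_eq, QuaternionGroup.orderOf_xa]
      have o1 : orderOf ((e.symm (QuaternionGroup.a 1) : P) : G) = 4 := by
        rw [Subgroup.orderOf_coe, MulEquiv.orderOf_eq, QuaternionGroup.orderOf_a_one]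
        rfl
      have e0 := npc hn _ (o 0)
      have e1 := npc hn _ (o 1)
      have e2 := npc hn _ o1
      rw [show (QuaternionGroup.xa 1 : QuaternionGroup (2 ^ 1)) =
        QuaternionGroup.xa 0 * QuaternionGroup.a 1 by simp, map_mul, coe_mul] at e1
      generalize ((e.symm (QuaternionGroup.xa 0) : P) : G) = s at *
      generalize ((e.symm (QuaternionGroup.a 1) : P) : G) = t at *
      have e3 : w = w⁻¹ := by
        calc w = (s * w * s⁻¹)⁻¹ := by rw [e0, inv_inv]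
          _ = s * (t * w * t⁻¹) * s⁻¹ := by rw [e2]; group
          _ = w⁻¹ := by rw [← e1]; group
      rw [eq_inv_iff_mul_eq_one, ← sq, ← orderOf_dvd_iff_pow_eq_one, hw] at e3
      norm_num at e3
    · have c1 : Nat.card (H ⧸ K.subgroupOf H) = 24 := by
        rw [Nat.card_congr f.toEquiv, Nat.card_eq_fintype_card]
        decide +kernel
      have c2 := card_eq_card_quotient_mul_card_subgroup (K.subgroupOf H)
      rw [c1] at c2
      have c3 : Nat.card H ≤ Nat.card G := H.card_le_card_group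
      have c4 : 0 < Nat.card (K.subgroupOf H) := Nat.card_pos
      have c5 : K.subgroupOf H = ⊥ := card_eq_one.1 (by omega)
      have c6 : H = ⊤ := eq_top_of_card_eq _ (by omega)
      exact ⟨topEquiv.symm.trans ((MulEquiv.subgroupCongr c6.symm).trans
        (QuotientGroup.quotientBot.symm.trans
          ((QuotientGroup.quotientMulEquivOfEq c5.symm).trans f)))⟩

theorem setup [Group.IsSolvable G] (hΩ : Hyp G)
    (hO : ∀ V : Subgroup G, V.Normal → IsPGroup 5 V → V = ⊥) (h5 : 5 ∣ Nat.card G) :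
    ∃ (N : Subgroup G) (x : G), N.Normal ∧ ¬ 5 ∣ Nat.card N ∧ orderOf x = 5 ∧
      ∀ y : G, ∃ n ∈ N, ∃ b ∈ 𝒩(zpowers x), y = n * b := by
  have f5 : Fact (Nat.Prime 5) := ⟨Nat.prime_five⟩
  obtain ⟨N, ⟨nN, hN⟩, hmax⟩ := (Set.toFinite {N : Subgroup G | N.Normal ∧ ¬ 5 ∣ Nat.card N}
    ).exists_maximal ⟨⊥, inferInstance, by simp⟩
  have hN1 : N ≠ ⊤ := fun h => hN (by rwa [h, card_top])
  have : Nontrivial (G ⧸ N) := QuotientGroup.nontrivial_iff.2 hN1
  obtain ⟨B, p, hp, nB, hB1, abB, pB, -, -⟩ := H2.exists_minimal_normal_of_solvable (G := G ⧸ N)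
  set M := B.comap (QuotientGroup.mk' N) with hM
  have hNM : N ≤ M := fun n hn => by
    rw [hM, mem_comap, show QuotientGroup.mk' N n = 1 from (QuotientGroup.eq_one_iff n).2 hn]
    exact one_mem _
  have hMB : M.map (QuotientGroup.mk' N) = B :=
    map_comap_eq_self_of_surjective (QuotientGroup.mk'_surjective N) B
  obtain rfl : p = 5 := by
    by_contra hp5
    have := Fact.mk hp
    have h1 : ¬ 5 ∣ Nat.card M := fun h => by
      obtain ⟨g, hg⟩ := exists_prime_orderOf_dvd_card' (G := M) 5 h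
      obtain ⟨j, hj⟩ := pB ⟨_, g.2⟩
      have h2 : ((g : G) ^ p ^ j) ∈ N := by
        rw [← QuotientGroup.eq_one_iff, QuotientGroup.mk_pow]; exact congrArg Subtype.val hj
      have h3 := N.orderOf_dvd_natCard h2
      rw [← Subgroup.orderOf_coe] at hg
      rw [Nat.Coprime.orderOf_pow, hg] at h3
      · exact hN h3
      · exact hg ▸ Nat.Coprime.pow_right _ ((Nat.coprime_primes f5.out hp).2 (Ne.symm hp5))
    have h2 : M ≤ N := hmax ⟨inferInstance, h1⟩ hNM
    rw [← hMB, Ne, Subgroup.map_eq_bot_iff, QuotientGroup.ker_mk'] at hB1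
    exact hB1 h2
  have hN0 : N ≠ ⊥ := fun h => by
    have h1 : IsPGroup 5 M := pB.comap_of_ker_isPGroup _ (by
      rw [QuotientGroup.ker_mk', h]; exact IsPGroup.of_bot)
    rw [← hMB, hO M inferInstance h1, Subgroup.map_bot] at hB1
    exact hB1 rfl
  obtain ⟨P⟩ : Nonempty (Sylow 5 G) := inferInstance
  have hBP := pB.le_sylow_of_normal (P.mapSurjective (QuotientGroup.mk'_surjective N))
  have hdec : ∀ m ∈ M, ∃ n ∈ N, ∃ q ∈ (P : Subgroup G) ⊓ M, m = n * q := fun m hm => by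
    obtain ⟨q, hq, e⟩ := hBP hm
    refine ⟨m * q⁻¹, ?_, q, ⟨hq, ?_⟩, by simp⟩
    · rw [← QuotientGroup.eq_one_iff, QuotientGroup.mk_mul, QuotientGroup.mk_inv,
        mul_inv_eq_one]
      exact e.symm
    · change _ ∈ B
      rw [e]; exact hm
  have hcop : (Nat.card ↥((P : Subgroup G) ⊓ M)).Coprime (Nat.card N) := by
    obtain ⟨j, hj⟩ := (P.isPGroup'.to_inf_left (K := M)).exists_card_eq
    rw [hj]
    exact Nat.Coprime.pow_left _ ((Nat.Prime.coprime_iff_not_dvd f5.out).2 hN)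
  have ho : ∀ a ∈ (P : Subgroup G) ⊓ M, a ≠ 1 → orderOf a = 5 := fun a ha h1 => by
    obtain ⟨j, hj⟩ := IsPGroup.iff_orderOf.1 P.isPGroup' ⟨a, ha.1⟩
    rw [Subgroup.orderOf_mk] at hj
    exact order_five hΩ (hj ▸ dvd_pow_self 5 fun h => h1 (by simpa [h] using hj))
  have hab : IsMulCommutative ↥((P : Subgroup G) ⊓ M) := abelian_iff.2 fun a ha b hb => by
    rw [← mul_inv_eq_one, ← mem_bot, ← H49.inf_eq_bot_of_coprime hcop]
    refine mem_inf.2 ⟨mul_mem (mul_mem hb ha) (inv_mem (mul_mem ha hb)), ?_⟩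
    rw [← QuotientGroup.eq_one_iff, QuotientGroup.mk_mul, QuotientGroup.mk_inv,
      mul_inv_eq_one]
    exact abelian_iff.1 abB ha.2 _ hb.2
  have hcyc : IsCyclic ↥((P : Subgroup G) ⊓ M) := by
    by_contra hc
    refine hN0 (le_bot_iff.1 (coprime_le_of_cent1 hab hc le_normalizer_of_normal hcop
      fun a ha h1 v hv => ?_))
    exact cent hΩ (ho a ha h1) (mem_cent1.1 hv.2) hN
      (orderOf_dvd_iff_pow_eq_one.1 (N.orderOf_dvd_natCard hv.1))
  obtain ⟨x, hx⟩ := (Subgroup.isCyclic_iff_exists_zpowers_eq_top _).1 hcyc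
  have hx1 : x ≠ 1 := fun h => by
    rw [← hMB, Ne, Subgroup.map_eq_bot_iff, QuotientGroup.ker_mk'] at hB1
    refine hB1 fun m hm => ?_
    obtain ⟨n, hn, q, hq, rfl⟩ := hdec m hm
    rw [← hx, h, zpowers_one_eq_bot, mem_bot] at hq
    simpa [hq] using hn
  refine ⟨N, x, nN, hN, ho x (hx ▸ mem_zpowers x) hx1, fun y => ?_⟩
  obtain ⟨m, hm, c, hc, rfl⟩ := (frattini_arg (M := ⊤) le_top le_normalizer_of_normal
    ((sylowOf_top f5.out P).inf_normal le_top (le_normalizer_of_normal (H := M)))).2.2 y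
    (mem_top y)
  obtain ⟨n, hn, q, hq, rfl⟩ := hdec m hm
  exact ⟨n, hn, q * c, hx ▸ mul_mem (le_normalizer hq) hc.2, mul_assoc _ _ _⟩

theorem pow_four_comm {x b : G} (ox : orderOf x = 5) (hb : b ∈ 𝒩(zpowers x)) :
    b ^ 4 * x = x * b ^ 4 := by
  obtain ⟨k, hk⟩ := mem_powers_iff_mem_zpowers.2 (conj_mem_of_norm le_rfl hb (mem_zpowers x))
  simp only at hk
  have key : ∀ j : ℕ, b ^ j * x * (b ^ j)⁻¹ = x ^ k ^ j := fun j => by
    induction j with
    | zero => simp
    | succ j ih =>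
      calc b ^ (j + 1) * x * (b ^ (j + 1))⁻¹ = b * (b ^ j * x * (b ^ j)⁻¹) * b⁻¹ := by
            rw [pow_succ']; group
        _ = x ^ k ^ (j + 1) := by rw [ih, ← conj_pow, ← hk, ← pow_mul, pow_succ']
  have h5 : ¬ 5 ∣ k := fun h => by
    rw [← ox, orderOf_dvd_iff_pow_eq_one, hk, conj_eq_one_iff] at h
    simp [h] at ox
  rw [← mul_inv_eq_iff_eq_mul, key, pow_eq_pow_mod _ (ox ▸ pow_orderOf_eq_one x : x ^ 5 = 1),
    show k ^ 4 % 5 = 1 by
      rw [Nat.pow_mod]
      have : k % 5 = 1 ∨ k % 5 = 2 ∨ k % 5 = 3 ∨ k % 5 = 4 := by omega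
      rcases this with e | e | e | e <;> rw [e], pow_one]

theorem core_false [Group.IsSolvable G] (hΩ : Hyp G)
    (hO : ∀ V : Subgroup G, V.Normal → IsPGroup 5 V → V = ⊥) (h5 : 5 ∣ Nat.card G) {a u : G}
    (oa : orderOf a = 4) (ou : orderOf u = 3) : False := by
  obtain ⟨N, x, nN, hN, ox, dec⟩ := setup hΩ hO h5
  have cN : ∀ v ∈ N, v * x = x * v → v = 1 := fun v hv c =>
    cent hΩ ox c hN (orderOf_dvd_iff_pow_eq_one.1 (N.orderOf_dvd_natCard hv))
  have pw : ∀ n ∈ N, ∀ (b : G) (j : ℕ), (n * b) ^ j ∈ N ↔ b ^ j ∈ N := fun n hn b j => by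
    rw [← QuotientGroup.eq_one_iff, ← QuotientGroup.eq_one_iff, QuotientGroup.mk_pow,
      QuotientGroup.mk_mul, (QuotientGroup.eq_one_iff n).2 hn, one_mul, QuotientGroup.mk_pow]
  have huN : u ∈ N := by
    obtain ⟨n, hn, b, hb, rfl⟩ := dec u
    have h1 : (n * b) ^ 40 ∈ N := (pw n hn b 40).2 (by
      rw [show 40 = 4 * 5 * 2 from rfl, pow_mul, pow_mul, hΩ.five ox (pow_four_comm ox hb), one_pow]
      exact one_mem _)
    rwa [pow_eq_pow_mod 40 (ou ▸ pow_orderOf_eq_one (n * b) : (n * b) ^ 3 = 1), pow_one] at h1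
  have nil : Group.IsNilpotent N := frob_nilpotent inferInstance (R := zpowers x)
    le_normalizer_of_normal (by rw [Ne, zpowers_eq_bot]; rintro rfl; simp at ox)
    (semiregular_of_prime_card (by rw [Nat.card_zpowers, ox]; exact Nat.prime_five) (by
      rw [cent_zpowers, eq_bot_iff]
      exact fun v hv => cN v hv.1 (mem_cent1.1 hv.2)))
  obtain ⟨n, hn, b, hb, rfl⟩ := dec a
  have b4 : b ^ 4 = 1 := cN _ ((pw n hn b 4).1 (by
    rw [← oa, pow_orderOf_eq_one]; exact one_mem _)) (pow_four_comm ox hb)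
  have : Fact (Nat.Prime 3) := ⟨Nat.prime_three⟩
  obtain ⟨Q⟩ : Nonempty (Sylow 3 N) := inferInstance
  have nQ : (Q : Subgroup N).Normal := Sylow.normal_of_normalizerCondition
    (Group.normalizerCondition_of_isNilpotent) Q
  have := Q.characteristic_of_normal nQ
  have pQ : IsPGroup 3 ((Q : Subgroup N).map N.subtype) := Q.isPGroup'.map _
  have hQ1 : (Q : Subgroup N).map N.subtype ≠ ⊥ := by
    rw [Ne, map_eq_bot_iff_of_injective _ N.subtype_injective]
    exact Q.ne_bot_of_dvd_card (ou ▸ N.orderOf_dvd_natCard huN)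
  have hZ := inf_center_ne_bot_of_nilpotent nil (map_subtype_le (Q : Subgroup N))
    le_normalizer_of_normal hQ1
  set Z := (Q : Subgroup N).map N.subtype ⊓ 𝒞(N) with hZdef
  have nZ : Z.Normal := inferInstance
  have pZ : IsPGroup 3 Z := pQ.to_inf_left
  have hreg : Semiregular (zpowers x) (zpowers b) := fun r hr r1 => eq_bot_iff.2 fun v hv => by
    by_contra v1
    have ov : orderOf v = 5 := ((Nat.dvd_prime Nat.prime_five).1
      (ox ▸ orderOf_dvd_of_mem_zpowers hv.1)).resolve_left fun e => v1 (orderOf_eq_one_iff.1 e)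
    refine r1 (cent hΩ ov (mem_cent1.1 hv.2).symm (m := 4) (by norm_num) ?_)
    exact orderOf_dvd_iff_pow_eq_one.1
      ((orderOf_dvd_of_mem_zpowers hr).trans (orderOf_dvd_of_pow_eq_one b4))
  have hne : Z ⊓ 𝒞(zpowers b) ≠ ⊥ := fun hc => by
    have h1 := frob_cent_of_cent_eq_bot (zpowers_le.2 hb) hreg le_normalizer_of_normal
      inferInstance (by
        obtain ⟨j, hj⟩ := pZ.exists_card_eq
        rw [hj, hreg.card_sup (zpowers_le.2 hb), Nat.card_zpowers, Nat.card_zpowers, ox]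
        exact Nat.Coprime.pow_left _ (Nat.Coprime.coprime_dvd_right
          (Nat.mul_dvd_mul_left 5 (orderOf_dvd_of_pow_eq_one b4)) (by norm_num))) hc
    exact hZ (eq_bot_iff.2 fun v hv => cN v (map_subtype_le _ hv.1) (h1 (mem_zpowers x) v hv))
  obtain ⟨⟨v, hv⟩, v1⟩ := ne_bot_iff_exists_ne_one.1 hne
  obtain ⟨j, hj⟩ := pZ ⟨v, hv.1⟩
  have ov : orderOf v = 3 := orderOf_eq_prime (hΩ.three (congrArg Subtype.val hj))
    fun e => v1 (Subtype.ext e)
  refine not12 hΩ oa ov ?_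
  rw [mul_assoc, hv.2 b (mem_zpowers b), ← mul_assoc, hv.1.2 n hn, mul_assoc]

end Solv

open _root_.Cfsg.Agent.H49 in
/-- The solvable groups whose element orders are exactly 1, ..., 6. -/
theorem Hyp.solv {G : Type*} [Group G] [Finite G] [Group.IsSolvable G] (h : Hyp G) {a b c : G}
    (ha : orderOf a = 4) (hb : orderOf b = 5) (hc : orderOf c = 6) :
    ∃ (N : Subgroup G) (_ : N.Normal), IsElementaryAbelian 5 N ∧
      (Nonempty (G ⧸ N ≃* QuaternionGroup 3) ∨
        Nonempty (G ⧸ N ≃* Matrix.SpecialLinearGroup (Fin 2) (ZMod 3))) := by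
  have f5 : Fact (Nat.Prime 5) := ⟨Nat.prime_five⟩
  have ou : orderOf (c ^ 2) = 3 := by rw [orderOf_pow' _ two_ne_zero, hc]; rfl
  obtain ⟨V, ⟨nV, pV⟩, hmax⟩ := (Set.toFinite {N : Subgroup G | N.Normal ∧ IsPGroup 5 N}
    ).exists_maximal ⟨⊥, inferInstance, IsPGroup.of_bot⟩
  have hle : ∀ W : Subgroup G, W.Normal → IsPGroup 5 W → W ≤ V := fun W nW pW =>
    le_sup_left.trans (hmax ⟨inferInstance, pW.to_sup_of_normal_right pV⟩ le_sup_right)
  have hV : V ≠ ⊥ := fun e => Solv.core_false h (fun W nW pW => le_bot_iff.1 (e ▸ hle W nW pW))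
    (hb ▸ orderOf_dvd_natCard b) ha ou
  have oV : ∀ v ∈ V, v ≠ 1 → orderOf v = 5 := fun v hv h1 => by
    obtain ⟨j, hj⟩ := IsPGroup.iff_orderOf.1 pV ⟨v, hv⟩
    rw [Subgroup.orderOf_mk] at hj
    exact Solv.order_five h (hj ▸ dvd_pow_self 5 fun e => h1 (by simpa [e] using hj))
  have eV : ∀ v ∈ V, v ^ 5 = 1 := fun v hv => by
    by_cases e : v = 1
    · rw [e, one_pow]
    · rw [← oV v hv e, pow_orderOf_eq_one]
  have fpf : ∀ z : G, orderOf z = 2 → MonoidHom.FixedPointFree (MulAut.conjNormal z : MulAut V) ∧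
      Function.Involutive (MulAut.conjNormal z : MulAut V) := fun z hz => by
    have z2 : z ^ 2 = 1 := hz ▸ pow_orderOf_eq_one z
    refine ⟨fun v hv => ?_, fun v => ?_⟩
    · by_contra v1
      have : z = 1 := Solv.cent h (oV v v.2 fun e => v1 (Subtype.ext e))
        (mul_inv_eq_iff_eq_mul.1 (congrArg Subtype.val hv)) (by norm_num) z2
      rw [this, orderOf_one] at hz
      omega
    · rw [← MulAut.mul_apply, ← map_mul, ← sq, z2, map_one, MulAut.one_apply]
  have inv : ∀ z : G, orderOf z = 2 → ∀ v ∈ V, z * v * z⁻¹ = v⁻¹ := fun z hz v hv =>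
    congrArg Subtype.val (congrFun ((fpf z hz).1.coe_eq_inv_of_involutive (fpf z hz).2) ⟨v, hv⟩)
  have oz : orderOf (a ^ 2) = 2 := by rw [orderOf_pow' _ two_ne_zero, ha]; rfl
  have abV : IsMulCommutative V :=
    ⟨⟨fun x y => ((fpf _ oz).1.commute_all_of_involutive (fpf _ oz).2 x y).eq⟩⟩
  have hC : 𝒞(V) ≤ V := by
    obtain ⟨⟨v, hv⟩, v1⟩ := ne_bot_iff_exists_ne_one.1 hV
    refine hle _ inferInstance fun g => ⟨1, Subtype.ext ?_⟩
    rw [pow_one]
    exact h.five (oV v hv fun e => v1 (Subtype.ext e)) (g.2 v hv).symm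
  have hq : ∀ g : G, ¬ 5 ∣ orderOf g → orderOf (QuotientGroup.mk' V g) = orderOf g := fun g hg => by
    refine Nat.dvd_antisymm (orderOf_map_dvd _ g) ?_
    have h1 : g ^ orderOf (QuotientGroup.mk' V g) ∈ V := by
      rw [← QuotientGroup.eq_one_iff, QuotientGroup.mk_pow]; exact pow_orderOf_eq_one _
    have h2 := eV _ h1
    rw [← pow_mul, ← orderOf_dvd_iff_pow_eq_one] at h2
    exact ((Nat.Prime.coprime_iff_not_dvd f5.out).2 hg).symm.dvd_of_dvd_mul_right h2
  have hi : ¬ 5 ∣ V.index := fun h5 => by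
    obtain ⟨x, ox⟩ := exists_prime_orderOf_dvd_card' (G := G ⧸ V) 5 h5
    obtain ⟨g, rfl⟩ := QuotientGroup.mk'_surjective V x
    have o1 : orderOf (g * a ^ 2 * g⁻¹) = 2 := by
      rw [← MulAut.conj_apply, MulEquiv.orderOf_eq, oz]
    have h1 : (a ^ 2)⁻¹ * (g * a ^ 2 * g⁻¹) ∈ V := hC fun v hv => by
      rw [eq_comm, ← mul_inv_eq_iff_eq_mul]
      calc _ = (a ^ 2)⁻¹ * (g * a ^ 2 * g⁻¹ * v * (g * a ^ 2 * g⁻¹)⁻¹) * a ^ 2 := by group
        _ = v := by rw [inv _ o1 v hv, ← inv _ oz v hv]; group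
    have h2 : QuotientGroup.mk' V (a ^ 2) = QuotientGroup.mk' V (g * a ^ 2 * g⁻¹) :=
      QuotientGroup.eq.2 h1
    rw [map_mul, map_mul, map_inv, eq_mul_inv_iff_mul_eq] at h2
    have h3 := hq (a ^ 2) (by rw [oz]; norm_num)
    rw [oz] at h3
    have h4 := Solv.cent (h.quo V) ox h2 (m := 2) (by norm_num)
      (orderOf_dvd_iff_pow_eq_one.1 h3.dvd)
    rw [h4] at h3
    simp at h3
  obtain ⟨n, hn⟩ := pV.exists_card_eq
  obtain ⟨H, hc⟩ := exists_right_complement'_of_coprime (N := V)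
    (hn ▸ Nat.Coprime.pow_left _ ((Nat.Prime.coprime_iff_not_dvd f5.out).2 hi))
  have hH : Nat.card H = V.index := hc.symm.index_eq_card.symm
  have reg : Semiregular V H := fun g hg h1 => eq_bot_iff.2 fun v hv => by
    by_contra hv1
    exact h1 (Solv.cent h (oV v hv.1 hv1) (mem_cent1.1 hv.2).symm
      (fun e => hi (hH ▸ e.trans (H.orderOf_dvd_natCard hg))) (pow_orderOf_eq_one g))
  have e := hc.symm.QuotientMulEquiv
  refine ⟨V, nV, ⟨abV, eV⟩, (Solv.compl (h.sub H) (hH ▸ hi) (S0040.result V H hc hV reg)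
    (y := e (QuotientGroup.mk' V a)) (w := e (QuotientGroup.mk' V (c ^ 2))) ?_ ?_).imp
    (fun ⟨f⟩ => ⟨e.trans f⟩) fun ⟨f⟩ => ⟨e.trans f⟩⟩
  · rw [e.orderOf_eq, hq a (by rw [ha]; norm_num), ha]
  · rw [e.orderOf_eq, hq _ (by rw [ou]; norm_num), ou]

end Cfsg.Agent.O6
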